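import Cfsg.Agent.H7.FocalTame

/-! Alperin fusion through tame intersections. -/

set_option autoImplicit false
set_option maxHeartbeats 100000

namespace Cfsg.Agent.H7

open Cfsg.Agent.ConjFam

variable {G : Type*} [Group G]

variable [Finite G] {p : ℕ} [hp : Fact p.Prime]

/-- The tame intersections of `P`. -/
def tameFam (P : Sylow p G) : Set (Subgroup G) :=
  {T | ∃ Q : Sylow p G, Tame p (P : Subgroup G) (Q : Subgroup G) ∧ T = (P : Subgroup G) ⊓ (Q : Subgroup G)}

theorem tame_self_mem (P : Sylow p G) : (P : Subgroup G) ∈ tameFam P := by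
  refine ⟨P, ?_, (inf_idem _).symm⟩
  have h : ¬ p ∣ ((P : Subgroup G) ⊓ Subgroup.normalizer ((P : Subgroup G) : Set G)).relIndex
      (Subgroup.normalizer ((P : Subgroup G) : Set G)) := by
    rw [inf_eq_left.mpr Subgroup.le_normalizer]
    exact fun hd => P.not_dvd_index (hd.trans (Subgroup.relIndex_dvd_index_of_le Subgroup.le_normalizer))
  constructor <;> (rw [inf_idem]; exact h)

theorem fchain_of_fusion (P : Sylow p G) :
    ∀ (k : ℕ) (T : Subgroup G) (g : G), Nat.card (P : Subgroup G) - Nat.card T = k →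
      T ≤ (P : Subgroup G) → T.map (MulAut.conj g).toMonoidHom ≤ (P : Subgroup G) →
      FChain (tameFam P) (T : Set G) g := by
  have hS : IsPGroup p (P : Subgroup G) := P.isPGroup'
  have hcle : ∀ U : Subgroup G, U ≤ (P : Subgroup G) → Nat.card U ≤ Nat.card (P : Subgroup G) :=
    fun U h => Nat.le_of_dvd Nat.card_pos (Subgroup.card_dvd_of_le h)
  intro k
  induction k using Nat.strong_induction_on with
  | _ k ih =>
  intro T g hk hTP hgP
  -- fusion of any larger subgroup is already controlled
  have hbig : ∀ (R : Subgroup G), Nat.card T < Nat.card R → R ≤ (P : Subgroup G) → ∀ c : G,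
      R.map (MulAut.conj c).toMonoidHom ≤ (P : Subgroup G) → FChain (tameFam P) (R : Set G) c := by
    intro R hR hRP c hc
    refine ih _ ?_ R c rfl hRP hc
    have := hcle R hRP
    omega
  rcases hTP.eq_or_lt with hTeq | hlt
  · subst hTeq
    have hgT := eq_of_le_of_card hgP (by rw [card_conjMap])
    simpa using FChain.cons _ (tame_self_mem P) (subset_refl _) (mem_normalizer_iff_conjMap.mpr hgT) (FChain.nil _)
  -- a conjugate `V` of `T` in `P` with Sylow normalizer in `P`
  obtain ⟨V, m, hVP, hm, hgood⟩ : ∃ (V : Subgroup G) (m : G), V ≤ (P : Subgroup G) ∧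
      T.map (MulAut.conj m).toMonoidHom = V ∧ Good p (P : Subgroup G) V := by
    let M := Subgroup.normalizer (T : Set G)
    let R0 : Sylow p ↥M := default
    have hTle : T.subgroupOf M ≤ (R0 : Subgroup ↥M) := by
      haveI : (T.subgroupOf M).Normal :=
        (Subgroup.normal_subgroupOf_iff_le_normalizer Subgroup.le_normalizer).mpr le_rfl
      have hpT : IsPGroup p ↥(T.subgroupOf M) := (hS.to_le hlt.le).comap_subtype
      exact hpT.le_sylow_of_normal R0
    set R := (R0 : Subgroup ↥M).map M.subtype with hR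
    obtain ⟨m, -, hm⟩ := exists_conj_into_in (T := (P : Subgroup G)) (H := ⊤) le_top hS
      (by rw [Subgroup.relIndex_top_right]; exact P.not_dvd_index)
      (le_top : R ≤ ⊤) (R0.isPGroup'.map _)
    refine ⟨_, m, ?_, rfl, ?_⟩
    · refine le_trans (Subgroup.map_mono ?_) hm
      intro x hx
      exact ⟨⟨x, Subgroup.le_normalizer hx⟩, hTle (Subgroup.mem_subgroupOf.mpr hx), rfl⟩
    · unfold Good
      rw [← conjMap_normalizer]
      have hle : R.map (MulAut.conj m).toMonoidHom ≤ (P : Subgroup G) ⊓ M.map (MulAut.conj m).toMonoidHom :=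
        le_inf hm (Subgroup.map_mono (Subgroup.map_subtype_le _))
      intro hd
      have h2 := dvd_trans hd (Subgroup.relIndex_dvd_of_le_left (M.map (MulAut.conj m).toMonoidHom) hle)
      rw [Subgroup.relIndex_map_map_of_injective _ _ (MulAut.conj m).injective, hR, Subgroup.relIndex,
        Subgroup.subgroupOf, Subgroup.comap_map_eq_self_of_injective M.subtype_injective] at h2
      exact R0.not_dvd_index h2
  have hVlt : V < (P : Subgroup G) :=
    lt_of_le_of_ne hVP fun he => (card_lt hlt).ne (by rw [← he, ← hm, card_conjMap])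
  have hVcard : Nat.card T = Nat.card V := by rw [← hm, card_conjMap]
  have hVnorm : ∀ c ∈ Subgroup.normalizer (V : Set G), FChain (tameFam P) (V : Set G) c := by
    set NV := Subgroup.normalizer (V : Set G) with hNV
    set R := (P : Subgroup G) ⊓ NV with hRdef
    have hVR : Nat.card T < Nat.card R := hVcard ▸ card_lt (lt_inf_normalizer hS hVlt)
    let K : Subgroup ↥NV := Subgroup.closure {x | ∃ k : ℕ, orderOf x = p ^ k}
    haveI : K.Normal := by
      constructor
      intro n hn c
      induction hn using Subgroup.closure_induction with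
      | mem z hz =>
        refine Subgroup.subset_closure ?_
        obtain ⟨j, hj⟩ := hz
        exact ⟨j, by rw [← hj, ← MulAut.conj_apply]; exact MulEquiv.orderOf_eq _ _⟩
      | one => simp
      | mul a b _ _ iha ihb => simpa [mul_assoc] using K.mul_mem iha ihb
      | inv a _ iha => simpa [mul_assoc] using K.inv_mem iha
    let RS : Sylow p ↥NV := ((hS.to_le inf_le_left).comap_subtype (K := NV)).toSylow
      (P := R.subgroupOf NV) hgood
    have hRK : (RS : Subgroup ↥NV) ≤ K := by
      intro x hx
      refine Subgroup.subset_closure ?_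
      obtain ⟨j, hj⟩ := IsPGroup.iff_orderOf.mp RS.isPGroup' ⟨x, hx⟩
      exact ⟨j, by rwa [Subgroup.orderOf_mk] at hj⟩
    have hfr := Sylow.normalizer_sup_eq_top' (N := K) RS hRK
    let St : Submonoid ↥NV :=
      { carrier := {c | FChain (tameFam P) (V : Set G) (c : G)}
        one_mem' := FChain.nil _
        mul_mem' := fun {a b} ha hb => by
          have e : cj (b : G) (V : Set G) = (V : Set G) := by
            rw [← coe_conjMap, mem_normalizer_iff_conjMap.mp b.2]
          exact FChain.trans hb (by rw [e]; exact ha) }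
    let StG : Subgroup ↥NV :=
      { St with
        inv_mem' := fun {c} hc => by
          rw [inv_eq_of_mul_eq_one_right (b := c ^ (orderOf c - 1))
            (by rw [← pow_succ', Nat.sub_add_cancel (orderOf_pos c), pow_orderOf_eq_one])]
          exact St.pow_mem hc _ }
    -- the two pieces lie in the stabilizer
    have h1 : Subgroup.normalizer ((RS : Subgroup ↥NV) : Set ↥NV) ≤ StG := by
      intro c hc
      refine (hbig R hVR inf_le_left c ?_).mono (fun t ht => ⟨hVP ht, Subgroup.le_normalizer ht⟩)
      rintro _ ⟨r, hr, rfl⟩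
      replace hr : r ∈ (P : Subgroup G) ⊓ NV := hr
      have hmem : (⟨r, hr.2⟩ : ↥NV) ∈ (RS : Subgroup ↥NV) := by
        show (⟨r, hr.2⟩ : ↥NV) ∈ R.subgroupOf NV
        exact Subgroup.mem_subgroupOf.mpr hr
      have h3 := (Subgroup.mem_normalizer_iff.mp hc _).mp hmem
      change c * ⟨r, hr.2⟩ * c⁻¹ ∈ R.subgroupOf NV at h3
      rw [Subgroup.mem_subgroupOf] at h3
      exact h3.1
    have h2 : K ≤ StG := by
      rw [Subgroup.closure_le]
      intro x hx
      obtain ⟨j, hj⟩ := hx
      show FChain (tameFam P) (V : Set G) (x : G)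
      have hxp : IsPGroup p (Subgroup.zpowers x) :=
        IsPGroup.of_card (n := j) (by rw [Nat.card_zpowers, hj])
      obtain ⟨S', hS'⟩ := hxp.exists_le_sylow
      obtain ⟨Q, hQ⟩ := (S'.isPGroup'.map NV.subtype).exists_le_sylow
      have hVQ : V ≤ (Q : Subgroup G) := by
        haveI : (V.subgroupOf NV).Normal :=
          (Subgroup.normal_subgroupOf_iff_le_normalizer Subgroup.le_normalizer).mpr le_rfl
        have hpV : IsPGroup p ↥(V.subgroupOf NV) := (hS.to_le hVP).comap_subtype
        have := hpV.le_sylow_of_normal S'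
        intro y hy
        exact hQ ⟨⟨y, Subgroup.le_normalizer hy⟩, this (Subgroup.mem_subgroupOf.mpr hy), rfl⟩
      have hxQ : (x : G) ∈ (Q : Subgroup G) :=
        hQ ⟨x, hS' (Subgroup.mem_zpowers x), rfl⟩
      rcases (le_inf hVP hVQ : V ≤ (P : Subgroup G) ⊓ (Q : Subgroup G)).eq_or_lt with he | hl
      · have hQm : V ∈ tameFam P := by
          refine ⟨Q, ⟨he ▸ hgood, ?_⟩, he⟩
          rw [← he]
          intro hd
          have hle : (S' : Subgroup ↥NV).map NV.subtype ≤ (Q : Subgroup G) ⊓ NV :=
            le_inf hQ (Subgroup.map_subtype_le _)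
          have h3 := dvd_trans hd (Subgroup.relIndex_dvd_of_le_left NV hle)
          rw [Subgroup.relIndex, Subgroup.subgroupOf,
            Subgroup.comap_map_eq_self_of_injective NV.subtype_injective] at h3
          exact S'.not_dvd_index h3
        simpa using FChain.cons V hQm (subset_refl _) x.2 (FChain.nil _)
      · obtain ⟨c, hc⟩ := MulAction.exists_smul_eq G Q P
        have hcQ : ∀ y ∈ (Q : Subgroup G), c * y * c⁻¹ ∈ (P : Subgroup G) := by
          intro y hy
          rw [← hc, Sylow.coe_subgroup_smul]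
          exact Subgroup.smul_mem_pointwise_smul y (MulAut.conj c) _ hy
        have hW : Nat.card T < Nat.card ((P : Subgroup G) ⊓ (Q : Subgroup G) : Subgroup G) :=
          hVcard ▸ card_lt hl
        have hWP : ((P : Subgroup G) ⊓ (Q : Subgroup G)).map (MulAut.conj c).toMonoidHom ≤ (P : Subgroup G) := by
          rintro _ ⟨s, hs, rfl⟩; exact hcQ s hs.2
        have hcW := hbig _ hW inf_le_left c hWP
        have hy : c * x * c⁻¹ ∈ (P : Subgroup G) := hcQ x hxQ
        have e1 : FChain (tameFam P) (V : Set G) c := hcW.mono (fun v hv => ⟨hVP hv, hVQ hv⟩)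
        have e2 : FChain (tameFam P) (cj c (V : Set G)) (c * x * c⁻¹) := by
          have hsub : cj c (V : Set G) ⊆ ((P : Subgroup G) : Set G) := by
            rintro _ ⟨v, hv, rfl⟩; exact hcQ v (hVQ hv)
          simpa using FChain.cons _ (tame_self_mem P) hsub (Subgroup.le_normalizer hy) (FChain.nil _)
        have e3 : FChain (tameFam P) (cj (c * x * c⁻¹ * c) (V : Set G)) c⁻¹ := by
          have hsub : cj (c * x * c⁻¹ * c) (V : Set G) ⊆
              ((((P : Subgroup G) ⊓ (Q : Subgroup G)).map (MulAut.conj c).toMonoidHom : Subgroup G) : Set G) := by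
            rintro _ ⟨v, hv, rfl⟩
            have hxv : (x : G) * v * (x : G)⁻¹ ∈ V := (Subgroup.mem_normalizer_iff.mp x.2 v).mp hv
            exact ⟨(x : G) * v * (x : G)⁻¹, ⟨hVP hxv, hVQ hxv⟩, by simp [MulAut.conj_apply, mul_assoc]⟩
          refine (hbig _ (by rwa [card_conjMap]) hWP c⁻¹ ?_).mono hsub
          rw [conjMap_conjMap, inv_mul_cancel, conjMap_one]
          exact inf_le_left
        simpa [mul_assoc] using (e1.trans e2).trans e3
    intro c hc
    have : (⟨c, hc⟩ : ↥NV) ∈ StG := by
      refine (sup_le h1 h2) ?_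
      rw [Sylow.coe_coe, hfr]; trivial
    exact this
  -- reduce `g` to an element normalizing `V`
  set U := T.map (MulAut.conj g).toMonoidHom with hU
  have hUlt : U < (P : Subgroup G) :=
    lt_of_le_of_ne hgP fun he => (card_lt hlt).ne (by rw [← he, hU, card_conjMap])
  obtain ⟨a, ha, haN⟩ := good_conj hS hgood hm
  obtain ⟨b, hb, hbN⟩ := good_conj (T := U) (g := m * g⁻¹) hS hgood
    (by rw [← conjMap_conjMap, conjMap_inv hU.symm, hm])
  have c1 : FChain (tameFam P) (T : Set G) a :=
    (hbig _ (card_lt (lt_inf_normalizer hS hlt)) inf_le_left a (haN.trans inf_le_left)).mono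
      (fun t ht => ⟨hlt.le ht, Subgroup.le_normalizer ht⟩)
  have hmid : b * g * a⁻¹ ∈ Subgroup.normalizer (V : Set G) := by
    rw [mem_normalizer_iff_conjMap, ← conjMap_conjMap, conjMap_inv ha, ← conjMap_conjMap, ← hU, hb]
  have c2 : FChain (tameFam P) (cj a (T : Set G)) (b * g * a⁻¹) := by
    rw [← coe_conjMap, ha]; exact hVnorm _ hmid
  have c3 : FChain (tameFam P) (cj (b * g * a⁻¹ * a) (T : Set G)) b⁻¹ := by
    rw [inv_mul_cancel_right, ← coe_conjMap, ← conjMap_conjMap, ← hU]
    refine (hbig _ ?_ (hbN.trans inf_le_left) b⁻¹ ?_).mono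
      (Subgroup.map_mono (le_inf hUlt.le Subgroup.le_normalizer))
    · rw [card_conjMap]
      exact lt_of_eq_of_lt (by rw [hU, card_conjMap]) (card_lt (lt_inf_normalizer hS hUlt))
    · rw [conjMap_conjMap, inv_mul_cancel, conjMap_one]
      exact inf_le_left
  simpa [mul_assoc] using (c1.trans c2).trans c3

end Cfsg.Agent.H7
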