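import Mathlib
import Cfsg.Agent.Solv.Nilpotent

/-!
Generating tuples of a finite `p`-group and automorphisms.
-/

set_option autoImplicit false

namespace Cfsg.Agent.H7

open Subgroup

variable {P : Type*} [Group P] [Finite P] {p : ℕ} [hp : Fact p.Prime]

/-- The subgroup generated by the Frattini subgroup and a tuple. -/
def span (P : Type*) [Group P] {k : ℕ} (s : Fin k → P) : Subgroup P :=
  frattini P ⊔ closure (Set.range s)

theorem commutator_pow_mem (hP : IsPGroup p P) :
    commutator P ≤ frattini P ∧ ∀ x : P, x ^ p ∈ frattini P := by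
  constructor
  · intro c hc
    rw [frattini, Order.radical, ← SetLike.mem_coe]
    simp only [coe_iInf, Set.mem_iInter, SetLike.mem_coe]
    exact fun M hM => (Solv.pGroup_coatom hP hM).1 hc
  · intro x
    rw [frattini, Order.radical, ← SetLike.mem_coe]
    simp only [coe_iInf, Set.mem_iInter, SetLike.mem_coe]
    exact fun M hM => (Solv.pGroup_coatom hP hM).2 x

omit [Finite P] hp in
theorem span_snoc {k : ℕ} (s : Fin k → P) (x : P) :
    span P (Fin.snoc s x : Fin (k + 1) → P) = span P s ⊔ zpowers x := by
  simp only [span]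
  rw [sup_assoc, zpowers_eq_closure, ← Subgroup.closure_union]
  congr 2
  ext y
  simp only [Set.mem_range, Set.mem_union, Set.mem_singleton_iff]
  constructor
  · rintro ⟨i, rfl⟩
    refine Fin.lastCases ?_ (fun j => ?_) i
    · exact Or.inr (Fin.snoc_last ..)
    · exact Or.inl ⟨j, by simp⟩
  · rintro (⟨j, rfl⟩ | rfl)
    · exact ⟨j.castSucc, Fin.snoc_castSucc ..⟩
    · exact ⟨Fin.last k, Fin.snoc_last ..⟩

/-- Adjoining an element outside divides the index by `p`. -/
theorem index_step (hP : IsPGroup p P) (L : Subgroup P) (hL : frattini P ≤ L) {x : P} (hx : x ∉ L) :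
    L.index = p * (L ⊔ zpowers x).index := by
  obtain ⟨hc, hpow⟩ := commutator_pow_mem hP
  haveI : L.Normal := Subgroup.Normal.of_commutator_le _ (hc.trans hL)
  set f := QuotientGroup.mk' L
  have ho : orderOf (f x) = p := orderOf_eq_prime
    (by rw [← map_pow]; exact (QuotientGroup.eq_one_iff _).mpr (hL (hpow x)))
    (fun e => hx ((QuotientGroup.eq_one_iff x).mp e))
  have hcm : ((L ⊔ zpowers x).map f) = zpowers (f x) := by
    rw [Subgroup.map_sup, MonoidHom.map_zpowers, (Subgroup.map_eq_bot_iff L).mpr (by simp [f]),
      bot_sup_eq]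
  have h1 := ((L ⊔ zpowers x).map f).card_mul_index
  rw [hcm, Nat.card_zpowers, ho] at h1
  have h2 : ((L ⊔ zpowers x).map f).index = (L ⊔ zpowers x).index :=
    index_map_eq _ (QuotientGroup.mk'_surjective L) (by simp [f])
  rw [hcm] at h2
  rw [h2] at h1
  exact (h1.trans L.index_eq_card.symm).symm

theorem index_step_le (hP : IsPGroup p P) (L : Subgroup P) (hL : frattini P ≤ L) (x : P) :
    L.index ∣ p * (L ⊔ zpowers x).index := by
  by_cases hx : x ∈ L
  · rw [sup_eq_left.mpr (zpowers_le.mpr hx)]
    exact dvd_mul_left ..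
  · exact dvd_of_eq (index_step hP L hL hx)

theorem index_span_dvd (hP : IsPGroup p P) : ∀ (k : ℕ) (s : Fin k → P),
    (frattini P).index ∣ p ^ k * (span P s).index := by
  intro k
  induction k with
  | zero =>
    intro s
    simp [span, Set.range_eq_empty]
  | succ k ih =>
    intro s
    rw [← Fin.snoc_init_self s, span_snoc]
    refine (ih (Fin.init s)).trans ?_
    rw [pow_succ, mul_assoc]
    exact mul_dvd_mul_left _ (index_step_le hP _ le_sup_left _)

/-- Tuples that are independent modulo the Frattini subgroup. -/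
abbrev Indep (p : ℕ) (P : Type*) [Group P] (r k : ℕ) := {s : Fin k → P // (span P s).index = p ^ (r - k)}

theorem card_indep (hP : IsPGroup p P) {n r : ℕ} (hn : Nat.card P = p ^ n)
    (hr : (frattini P).index = p ^ r) : ∀ k ≤ r,
    Nat.card (Indep p P r k) = ∏ i ∈ Finset.range k, (p ^ n - p ^ (n - r + i)) := by
  intro k
  induction k with
  | zero =>
    intro _
    rw [Finset.range_zero, Finset.prod_empty]
    refine Nat.card_eq_one_iff_exists.mpr ⟨⟨Fin.elim0, ?_⟩, fun s => Subtype.ext (funext fun i => i.elim0)⟩
    simp [span, Set.range_eq_empty, hr]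
  | succ k ih =>
    intro hk
    have hrn : r ≤ n := by
      have := (frattini P).index_dvd_card
      rw [hn, hr] at this
      exact (Nat.pow_dvd_pow_iff_le_right hp.out.one_lt).mp this
    have hinit : ∀ s : Indep p P r (k + 1), (span P (Fin.init s.1)).index = p ^ (r - k) ∧
        s.1 (Fin.last k) ∉ span P (Fin.init s.1) := by
      intro s
      have h1 : (frattini P).index ∣ p ^ k * (span P (Fin.init s.1)).index := index_span_dvd hP k _
      have h2 : (span P (Fin.init s.1)).index ∣ p * (span P s.1).index := by
        conv_rhs => rw [← Fin.snoc_init_self s.1, span_snoc]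
        exact index_step_le hP _ le_sup_left _
      rw [s.2, ← pow_succ', show r - (k + 1) + 1 = r - k by omega] at h2
      obtain ⟨i, hi, he⟩ := (Nat.dvd_prime_pow hp.out).mp h2
      rw [hr, he, ← pow_add, Nat.pow_dvd_pow_iff_le_right hp.out.one_lt] at h1
      have hik : i = r - k := by omega
      refine ⟨by rw [he, hik], fun hx => ?_⟩
      have h3 : span P s.1 = span P (Fin.init s.1) := by
        conv_lhs => rw [← Fin.snoc_init_self s.1, span_snoc]
        exact sup_eq_left.mpr (zpowers_le.mpr hx)
      have h4 := s.2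
      rw [h3, he, hik] at h4
      have := Nat.pow_right_injective hp.out.two_le h4
      omega
    let e : Indep p P r (k + 1) ≃ Σ s : Indep p P r k, {x : P // x ∉ span P s.1} :=
      { toFun := fun s => ⟨⟨Fin.init s.1, (hinit s).1⟩, ⟨s.1 (Fin.last k), (hinit s).2⟩⟩
        invFun := fun sx => ⟨Fin.snoc sx.1.1 sx.2.1, by
          have h := index_step hP (span P sx.1.1) le_sup_left sx.2.2
          rw [sx.1.2] at h
          have e : p ^ (r - k) = p * p ^ (r - (k + 1)) := by rw [← pow_succ']; congr 1; omega
          have h' := e.symm.trans h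
          rw [span_snoc]
          exact (Nat.eq_of_mul_eq_mul_left hp.out.pos h').symm⟩
        left_inv := fun s => Subtype.ext (Fin.snoc_init_self s.1)
        right_inv := fun ⟨⟨s, hs⟩, ⟨x, hx⟩⟩ => by
          refine Sigma.subtype_ext ?_ ?_
          · exact Subtype.ext (by simp)
          · simp }
    classical
    haveI := Fintype.ofFinite P
    have hfib : ∀ s : Indep p P r k, Nat.card {x : P // x ∉ span P s.1} = p ^ n - p ^ (n - r + k) := by
      intro s
      rw [Nat.card_eq_fintype_card, Fintype.card_subtype_compl, ← Nat.card_eq_fintype_card,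
        ← Nat.card_eq_fintype_card, hn]
      congr 1
      have h := (span P s.1).card_mul_index
      rw [s.2, hn] at h
      refine Nat.eq_of_mul_eq_mul_right (pow_pos hp.out.pos (r - k)) ?_
      rw [← pow_add, show n - r + k + (r - k) = n by omega]
      exact h
    rw [Nat.card_congr e, Nat.card_sigma, Finset.sum_congr rfl (fun s _ => hfib s), Finset.sum_const,
      smul_eq_mul, Finset.card_univ, ← Nat.card_eq_fintype_card, ih (by omega), Finset.prod_range_succ]

theorem card_indep_self (hP : IsPGroup p P) {n r : ℕ} (hn : Nat.card P = p ^ n)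
    (hr : (frattini P).index = p ^ r) : Nat.card (Indep p P r r) =
      p ^ (r * (n - r)) * ∏ i ∈ Finset.range r, (p ^ r - p ^ i) := by
  have hrn : r ≤ n := by
    have := (frattini P).index_dvd_card
    rw [hn, hr] at this
    exact (Nat.pow_dvd_pow_iff_le_right hp.out.one_lt).mp this
  rw [card_indep hP hn hr r le_rfl, mul_comm r, pow_mul]
  conv_rhs => rw [← Finset.card_range r, ← Finset.prod_const, Finset.card_range,
    ← Finset.prod_mul_distrib]
  refine Finset.prod_congr rfl fun i _ => ?_
  rw [Nat.mul_sub, ← pow_add, ← pow_add, show n - r + r = n by omega]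

/-- A free action divides the cardinality. -/
theorem card_dvd_of_free {A β : Type*} [Group A] [Finite β] [MulAction A β]
    (h : ∀ b : β, MulAction.stabilizer A b = ⊥) : Nat.card A ∣ Nat.card β := by
  rw [Nat.card_congr (MulAction.selfEquivOrbitsQuotientProd h), Nat.card_prod]
  exact dvd_mul_left ..

omit [Finite P] hp in
/-- An automorphism fixing generators is trivial. -/
theorem eq_one_of_fix [IsCoatomic (Subgroup P)] {k : ℕ} (s : Fin k → P) (hs : span P s = ⊤)
    (α : MulAut P) (h : ∀ i, α (s i) = s i) : α = 1 := by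
  have htop : closure (Set.range s) = ⊤ := frattini_nongenerating (by rw [sup_comm]; exact hs)
  refine MulEquiv.toMonoidHom_injective (MonoidHom.eq_of_eqOn_dense htop ?_)
  rintro _ ⟨i, rfl⟩
  exact h i

end Cfsg.Agent.H7
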