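import Cfsg.Agent.Char.Integral

/-!
An irreducible character vanishing at all elements of order `p` has `p`-defect zero.
-/

set_option autoImplicit false

open Representation Module

namespace Cfsg.Agent.DefectZero

variable {G : Type*} [Group G] [Finite G] {p : ℕ} [hp : Fact p.Prime]

/-- Factorisations of `g` into two elements killed by `p`. -/
abbrev Pairs (p : ℕ) (g : G) : Type _ :=
  {q : G × G // q.1 ^ p = 1 ∧ q.2 ^ p = 1 ∧ q.1 * q.2 = g}

/-- A multiple of `p` counts the factorisations if `p` divides the centralizer order. -/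
theorem dvd_card_pairs (g : G) (h : p ∣ Nat.card (Subgroup.centralizer ({g} : Set G))) :
    p ∣ Nat.card (Pairs p g) := by
  obtain ⟨⟨e, he⟩, hord⟩ := exists_prime_orderOf_dvd_card' p h
  rw [Subgroup.orderOf_mk] at hord
  have heg : e * g = g * e := Subgroup.mem_centralizer_singleton_iff.mp he
  set Z := Subgroup.zpowers e with hZ
  have hZp : IsPGroup p Z := IsPGroup.of_card (n := 1) (by rw [Nat.card_zpowers, hord, pow_one])
  have hzg : ∀ z : Z, Commute (z : G) g := fun z => by
    obtain ⟨i, hi⟩ := Subgroup.mem_zpowers_iff.mp z.2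
    rw [← hi]
    exact (show Commute e g from heg).zpow_left i
  let F := {q : Pairs p g // Commute e q.1.1 ∧ Commute e q.1.2}
  have hcm : ∀ (z : Z) (u : G), Commute e u → Commute (z : G) u := fun z u hu => by
    obtain ⟨i, hi⟩ := Subgroup.mem_zpowers_iff.mp z.2
    rw [← hi]
    exact hu.zpow_left i
  have hzp : ∀ z : Z, (z : G) ^ p = 1 := fun z => by
    obtain ⟨i, hi⟩ := Subgroup.mem_zpowers_iff.mp z.2
    rw [← hi, ← zpow_natCast, ← zpow_mul, mul_comm, zpow_mul, zpow_natCast, ← hord,
      pow_orderOf_eq_one, one_zpow]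
  have hze : ∀ z : Z, Commute e (z : G) := fun z => by
    obtain ⟨i, hi⟩ := Subgroup.mem_zpowers_iff.mp z.2
    rw [← hi]
    exact (Commute.refl e).zpow_right i
  have hF : p ∣ Nat.card F := by
    letI act : MulAction Z F :=
      { smul := fun z q => ⟨⟨(q.1.1.1 * z, (z : G)⁻¹ * q.1.1.2),
          by
            refine ⟨?_, ?_, ?_⟩
            · rw [(hcm z _ q.2.1).symm.mul_pow, q.1.2.1, hzp, one_mul]
            · rw [(hcm z _ q.2.2).inv_left.mul_pow, q.1.2.2.1, inv_pow, hzp, inv_one, one_mul]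
            · rw [mul_assoc, mul_inv_cancel_left, q.1.2.2.2]⟩,
          ⟨q.2.1.mul_right (hze z), (hze z).inv_right.mul_right q.2.2⟩⟩
        one_smul := fun q => Subtype.ext (Subtype.ext (Prod.ext
          (show q.1.1.1 * ((1 : Z) : G) = q.1.1.1 by simp)
          (show ((1 : Z) : G)⁻¹ * q.1.1.2 = q.1.1.2 by simp)))
        mul_smul := fun a b q => Subtype.ext (Subtype.ext (Prod.ext
          (show q.1.1.1 * ((a * b : Z) : G) = q.1.1.1 * b * a by
            rw [mul_assoc]; congr 1; exact congrArg Subtype.val (mul_comm' a b))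
          (show ((a * b : Z) : G)⁻¹ * q.1.1.2 = (a : G)⁻¹ * ((b : G)⁻¹ * q.1.1.2) by
            rw [← mul_assoc, ← mul_inv_rev]
            congr 2
            exact congrArg Subtype.val (mul_comm' a b)))) }
    have hmod := hZp.card_modEq_card_fixedPoints F
    haveI : IsEmpty (MulAction.fixedPoints Z F) := ⟨fun q => by
      have h1 := congrArg (fun r : F => r.1.1.1) (q.2 ⟨e, Subgroup.mem_zpowers e⟩)
      have h2 : q.1.1.1.1 * e = q.1.1.1.1 := h1
      rw [mul_eq_left] at h2
      rw [h2, orderOf_one] at hord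
      exact hp.out.ne_one hord.symm⟩
    rw [Nat.card_of_isEmpty (α := MulAction.fixedPoints Z F)] at hmod
    exact Nat.modEq_zero_iff_dvd.mp hmod
  letI act : MulAction Z (Pairs p g) :=
    { smul := fun z q => ⟨((z : G) * q.1.1 * (z : G)⁻¹, (z : G) * q.1.2 * (z : G)⁻¹),
        ⟨by rw [conj_pow, q.2.1, mul_one, mul_inv_cancel],
          by rw [conj_pow, q.2.2.1, mul_one, mul_inv_cancel],
          by
            calc (z : G) * q.1.1 * (z : G)⁻¹ * ((z : G) * q.1.2 * (z : G)⁻¹)
                = (z : G) * (q.1.1 * q.1.2) * (z : G)⁻¹ := by group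
              _ = g := by rw [q.2.2.2, (hzg z).eq, mul_inv_cancel_right]⟩⟩
      one_smul := fun q => Subtype.ext (Prod.ext
        (show ((1 : Z) : G) * q.1.1 * ((1 : Z) : G)⁻¹ = q.1.1 by simp)
        (show ((1 : Z) : G) * q.1.2 * ((1 : Z) : G)⁻¹ = q.1.2 by simp))
      mul_smul := fun a b q => Subtype.ext (Prod.ext
        (show ((a * b : Z) : G) * q.1.1 * ((a * b : Z) : G)⁻¹ =
          (a : G) * ((b : G) * q.1.1 * (b : G)⁻¹) * (a : G)⁻¹ by simp [mul_assoc])
        (show ((a * b : Z) : G) * q.1.2 * ((a * b : Z) : G)⁻¹ =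
          (a : G) * ((b : G) * q.1.2 * (b : G)⁻¹) * (a : G)⁻¹ by simp [mul_assoc])) }
  have hmod := hZp.card_modEq_card_fixedPoints (Pairs p g)
  have hfix : Nat.card (MulAction.fixedPoints Z (Pairs p g)) = Nat.card F := by
    refine Nat.card_congr (Equiv.subtypeEquivRight fun q => ⟨fun hq => ?_, fun hq z => ?_⟩)
    · have h1 := hq ⟨e, Subgroup.mem_zpowers e⟩
      exact ⟨mul_inv_eq_iff_eq_mul.mp (congrArg (fun r : Pairs p g => r.1.1) h1),
        mul_inv_eq_iff_eq_mul.mp (congrArg (fun r : Pairs p g => r.1.2) h1)⟩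
    · exact Subtype.ext (Prod.ext (mul_inv_eq_iff_eq_mul.mpr (hcm z _ hq.1))
        (mul_inv_eq_iff_eq_mul.mpr (hcm z _ hq.2)))
  rw [hfix] at hmod
  exact Nat.modEq_zero_iff_dvd.mp (hmod.trans (Nat.modEq_zero_iff_dvd.mpr hF))

theorem card_pairs_conj (g y : G) : Nat.card (Pairs p (y * g * y⁻¹)) = Nat.card (Pairs p g) := by
  refine (Nat.card_congr (Equiv.subtypeEquiv
    (Equiv.prodCongr (MulAut.conj y).toEquiv (MulAut.conj y).toEquiv) fun q => ?_)).symm
  simp only [Equiv.prodCongr_apply, Prod.map_fst, Prod.map_snd, MulEquiv.toEquiv_eq_coe,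
    EquivLike.coe_coe]
  rw [← map_pow, ← map_pow, ← map_mul, MulEquiv.map_eq_one_iff, MulEquiv.map_eq_one_iff,
    ← MulAut.conj_apply y g, EquivLike.apply_eq_iff_eq]

/-- The defect-zero criterion. -/
theorem factorization_eq {V : Type*} [AddCommGroup V] [Module ℂ V] [FiniteDimensional ℂ V]
    (ρ : Representation ℂ G V) [ρ.IsIrreducible]
    (hvan : ∀ g : G, orderOf g = p → ρ.character g = 0) :
    (finrank ℂ V).factorization p = (Nat.card G).factorization p := by
  classical
  haveI := Fintype.ofFinite G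
  haveI : Finite (ConjClasses G) := Finite.of_surjective _ ConjClasses.mk_surjective
  haveI := Fintype.ofFinite (ConjClasses G)
  set n := finrank ℂ V with hn
  have hnpos : 0 < n := Char.finrank_pos_of_isIrreducible ρ
  set X : Finset G := Finset.univ.filter fun a => a ^ p = 1 with hX
  let T : Module.End ℂ V := ∑ a ∈ X, ρ a
  have hcomm : ∀ y, T * ρ y = ρ y * T := by
    intro y
    simp only [T, Finset.sum_mul, Finset.mul_sum, ← map_mul]
    refine Finset.sum_nbij' (fun a => y⁻¹ * a * y) (fun a => y * a * y⁻¹) ?_ ?_ ?_ ?_ ?_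
    · intro a ha
      simp only [hX, Finset.mem_filter_univ] at ha ⊢
      have := conj_pow (i := p) (a := y⁻¹) (b := a)
      rw [inv_inv] at this
      rw [this, ha, mul_one, inv_mul_cancel]
    · intro a ha
      simp only [hX, Finset.mem_filter_univ] at ha ⊢
      rw [conj_pow, ha, mul_one, mul_inv_cancel]
    · intro a _; simp [mul_assoc]
    · intro a _; simp [mul_assoc]
    · intro a _; simp [mul_assoc]
  obtain ⟨c, hc⟩ := Char.exists_smul_id_of_commute ρ T hcomm
  have hsum : ∑ a ∈ X, ρ.character a = (n : ℂ) := by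
    rw [Finset.sum_eq_single (1 : G)]
    · rw [Representation.char_one]
    · intro a ha ha1
      simp only [hX, Finset.mem_filter_univ] at ha
      exact hvan a (orderOf_eq_prime ha ha1)
    · intro h1; simp [hX] at h1
  have hc1 : c = 1 := by
    have h1 : LinearMap.trace ℂ V T = (n : ℂ) := by rw [map_sum]; exact hsum
    rw [hc, map_smul, LinearMap.trace_id, smul_eq_mul, ← hn] at h1
    exact mul_right_cancel₀ (Nat.cast_ne_zero.mpr hnpos.ne') (h1.trans (one_mul _).symm)
  have hT : T = 1 := by rw [hc, hc1, one_smul]; rfl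
  have hpairs : ∑ q ∈ X ×ˢ X, ρ.character (q.1 * q.2) = (n : ℂ) := by
    have h1 : T * T = ∑ q ∈ X ×ˢ X, ρ (q.1 * q.2) := by
      simp only [T, Finset.sum_mul_sum, Finset.sum_product, ← map_mul]
    have h2 := congrArg (LinearMap.trace ℂ V) h1
    rw [hT, one_mul, LinearMap.trace_one, map_sum] at h2
    exact h2.symm
  have hcount : ∀ g, (((X ×ˢ X).filter fun q => q.1 * q.2 = g).card : ℂ) =
      (Nat.card (Pairs p g) : ℂ) := fun g => by
    rw [Nat.card_eq_fintype_card, Fintype.card_subtype]
    congr 2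
    ext q
    simp [hX, Finset.mem_product, and_assoc]
  have hgroup : ∑ g : G, (Nat.card (Pairs p g) : ℂ) * ρ.character g = (n : ℂ) := by
    rw [← hpairs, ← Finset.sum_fiberwise (X ×ˢ X) (fun q => q.1 * q.2)]
    refine Finset.sum_congr rfl fun g _ => ?_
    rw [← hcount, ← nsmul_eq_mul, ← Finset.sum_const]
    exact Finset.sum_congr rfl fun q hq => by rw [(Finset.mem_filter.mp hq).2]
  set d := n.factorization p with hd
  set m := n / p ^ d with hm
  have hmn : p ^ d * m = n := Nat.mul_div_cancel' (Nat.ordProj_dvd n p)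
  by_contra hne
  have hle : d < (Nat.card G).factorization p :=
    lt_of_le_of_ne ((Nat.factorization_le_iff_dvd hnpos.ne' Nat.card_pos.ne').mpr
      (Char.finrank_dvd_card ρ) p) hne
  have hint : IsIntegral ℤ ((m : ℂ) / (p : ℂ)) := by
    have h1 : (m : ℂ) / p = ∑ g : G, (Nat.card (Pairs p g) : ℂ) * ρ.character g * m / (n * p) := by
      rw [← Finset.sum_div, ← Finset.sum_mul, hgroup,
        mul_div_mul_left _ _ (Nat.cast_ne_zero.mpr hnpos.ne')]
    rw [h1, ← Finset.sum_fiberwise Finset.univ ConjClasses.mk]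
    refine IsIntegral.sum _ fun C _ => ?_
    obtain ⟨g, rfl⟩ := ConjClasses.mk_surjective C
    have hfilter : (Finset.univ.filter fun x => ConjClasses.mk x = ConjClasses.mk g)
        = Finset.univ.filter fun x => IsConj g x := by
      refine Finset.filter_congr fun x _ => ?_
      rw [ConjClasses.mk_eq_mk_iff_isConj]
      exact isConj_comm
    have hterm : ∀ x ∈ Finset.univ.filter (fun x => IsConj g x),
        (Nat.card (Pairs p x) : ℂ) * ρ.character x * m / (n * p) =
          (Nat.card (Pairs p g) : ℂ) * ρ.character g * m / (n * p) := by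
      intro x hx
      simp only [Finset.mem_filter_univ] at hx
      obtain ⟨y, rfl⟩ := isConj_iff.1 hx
      rw [ρ.char_conj, card_pairs_conj]
    rw [hfilter, Finset.sum_congr rfl hterm, Finset.sum_const, Char.card_conj_set, nsmul_eq_mul]
    set k := (Subgroup.centralizer ({g} : Set G)).index with hk
    have hp0 : (p : ℂ) ≠ 0 := Nat.cast_ne_zero.mpr hp.out.ne_zero
    have hn0 : (n : ℂ) ≠ 0 := Nat.cast_ne_zero.mpr hnpos.ne'
    by_cases hpc : p ∣ Nat.card (Subgroup.centralizer ({g} : Set G))
    · obtain ⟨r, hr⟩ := dvd_card_pairs g hpc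
      have e : (k : ℂ) * ((Nat.card (Pairs p g) : ℂ) * ρ.character g * m / (n * p)) =
          ((r * m : ℕ) : ℂ) * ((k : ℂ) * ρ.character g / n) := by
        rw [hr]; push_cast; field_simp
      rw [e]
      exact (isIntegral_natCast _).mul (Char.isIntegral_centralValue ρ g)
    · have hdk : p ^ (d + 1) ∣ k := by
        refine Nat.Coprime.dvd_of_dvd_mul_left
          ((hp.out.coprime_iff_not_dvd.mpr hpc).pow_left (d + 1)) ?_
        rw [hk, Subgroup.card_mul_index]
        exact (pow_dvd_pow p (by omega)).trans (Nat.ordProj_dvd _ p)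
      obtain ⟨r, hr⟩ := hdk
      have e : (k : ℂ) * ((Nat.card (Pairs p g) : ℂ) * ρ.character g * m / (n * p)) =
          ((r * Nat.card (Pairs p g) : ℕ) : ℂ) * ρ.character g := by
        have hmn' : ((p : ℂ) ^ d * m) = n := by exact_mod_cast congrArg (Nat.cast : ℕ → ℂ) hmn
        rw [hr]; push_cast
        field_simp
        rw [← hmn']
        ring
      rw [e]
      exact (isIntegral_natCast _).mul (Char.isIntegral_char ρ g)
  exact Nat.not_dvd_ordCompl hp.out hnpos.ne'
    (Char.nat_dvd_of_isIntegral hp.out.ne_zero hint)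

end Cfsg.Agent.DefectZero
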