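import Cfsg.Agent.Transfer.Frobenius
import Mathlib.GroupTheory.SpecificGroups.Dihedral
import Mathlib.GroupTheory.SpecificGroups.KleinFour
import Mathlib.GroupTheory.SpecificGroups.Cyclic
import Mathlib.GroupTheory.Subgroup.Centralizer

/-! Odd order elements acting on subgroups of dihedral 2-groups. -/

set_option autoImplicit false

namespace Cfsg.Agent.H7

variable {G : Type*} [Group G] [Finite G]

theorem odd_centralizes_cyclic {Q : Subgroup G} (hQ : IsPGroup 2 Q) [IsCyclic Q] {g : G}
    (hg : g ∈ Subgroup.normalizer (Q : Set G)) (ho : Nat.Coprime (orderOf g) 2) :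
    g ∈ Subgroup.centralizer (Q : Set G) := by
  haveI : Fact (Nat.Prime 2) := ⟨Nat.prime_two⟩
  obtain ⟨k, hk⟩ := IsPGroup.iff_card.mp hQ
  have hcard : ∃ j : ℕ, Nat.card (MulAut Q) = 2 ^ j := by
    rw [IsCyclic.card_mulAut, hk]
    rcases Nat.eq_zero_or_pos k with h0 | h0
    · exact ⟨0, by simp [h0]⟩
    · exact ⟨k - 1, by simp [Nat.totient_prime_pow Nat.prime_two h0]⟩
  obtain ⟨j, hj⟩ := hcard
  have h1 : Q.normalizerMonoidHom ⟨g, hg⟩ = 1 := by
    rw [← orderOf_eq_one_iff]
    refine Nat.eq_one_of_dvd_coprimes (a := orderOf g) (b := 2 ^ j) (ho.pow_right j) ?_ ?_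
    · have := orderOf_map_dvd Q.normalizerMonoidHom ⟨g, hg⟩
      simpa using this
    · rw [← hj]; exact orderOf_dvd_natCard _
  have : (⟨g, hg⟩ : ↥(Subgroup.normalizer (Q : Set G))) ∈ Q.normalizerMonoidHom.ker := h1
  rw [Subgroup.normalizerMonoidHom_ker] at this
  exact this

theorem rotation_structure {n : ℕ} (S : Subgroup G) (e : S ≃* DihedralGroup n) :
    ∃ R : Subgroup G, R ≤ S ∧ IsCyclic R ∧ (∀ x ∈ S, x ∉ R → x * x = 1) ∧
      ∀ x ∈ S, ∀ y ∈ S, x ∉ R → y ∉ R → x * y ∈ R := by
  refine ⟨Subgroup.zpowers ((e.symm (DihedralGroup.r 1) : S) : G),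
    Subgroup.zpowers_le.mpr (e.symm (DihedralGroup.r 1)).2, inferInstance, ?_, ?_⟩ <;>
  have hr : ∀ (x : G) (hx : x ∈ S), (∃ i, e ⟨x, hx⟩ = DihedralGroup.r i) →
      x ∈ Subgroup.zpowers ((e.symm (DihedralGroup.r 1) : S) : G) := by
    rintro x hx ⟨i, hi⟩
    obtain ⟨m, rfl⟩ := ZMod.intCast_surjective i
    refine Subgroup.mem_zpowers_iff.mpr ⟨m, ?_⟩
    have : e.symm ((DihedralGroup.r 1) ^ m) = ⟨x, hx⟩ := by
      rw [DihedralGroup.r_one_zpow, ← hi, MulEquiv.symm_apply_apply]
    rw [map_zpow] at this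
    exact congrArg Subtype.val this
  · intro x hx hxR
    rcases hc : e ⟨x, hx⟩ with i | i
    · exact absurd (hr x hx ⟨i, hc⟩) hxR
    · have : e (⟨x, hx⟩ * ⟨x, hx⟩) = e 1 := by rw [map_mul, hc, DihedralGroup.sr_mul_self, map_one]
      exact congrArg Subtype.val (e.injective this)
  · intro x hx y hy hxR hyR
    rcases hc : e ⟨x, hx⟩ with i | i
    · exact absurd (hr x hx ⟨i, hc⟩) hxR
    rcases hd : e ⟨y, hy⟩ with j | j
    · exact absurd (hr y hy ⟨j, hd⟩) hyR
    refine hr (x * y) (S.mul_mem hx hy) ⟨j - i, ?_⟩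
    rw [← DihedralGroup.sr_mul_sr, ← hc, ← hd, ← map_mul]
    rfl

/-- An element of odd order normalizing a subgroup of a dihedral 2-group, not a four-group,
centralizes it. -/
theorem odd_centralizes_of_dihedral {n : ℕ} {S : Subgroup G} (e : S ≃* DihedralGroup n)
    (hS : IsPGroup 2 S) {Q : Subgroup G} (hQS : Q ≤ S) (hK : ¬ IsKleinFour Q) {g : G}
    (hg : g ∈ Subgroup.normalizer (Q : Set G)) (ho : Nat.Coprime (orderOf g) 2) :
    g ∈ Subgroup.centralizer (Q : Set G) := by
  haveI : Fact (Nat.Prime 2) := ⟨Nat.prime_two⟩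
  obtain ⟨R, hRS, hRc, hinv, hprod⟩ := rotation_structure S e
  have hQ : IsPGroup 2 Q := hS.to_le hQS
  by_cases hcyc : IsCyclic Q
  · exact odd_centralizes_cyclic hQ hg ho
  set C := Q ⊓ R with hC
  haveI hCc : IsCyclic C := by
    haveI := hRc
    exact isCyclic_of_injective (Subgroup.inclusion (inf_le_right : C ≤ R))
      (Subgroup.inclusion_injective _)
  have hQR : ¬ Q ≤ R := fun h => hcyc (by
    haveI := hRc
    exact isCyclic_of_injective (Subgroup.inclusion h) (Subgroup.inclusion_injective _))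
  obtain ⟨s, hsQ, hsR⟩ := SetLike.not_le_iff_exists.mp hQR
  have hdec : ∀ x ∈ Q, x ∈ C ∨ x * s ∈ C := fun x hx => by
    by_cases hxR : x ∈ R
    · exact Or.inl ⟨hx, hxR⟩
    · exact Or.inr ⟨Q.mul_mem hx hsQ, hprod x (hQS hx) s (hQS hsQ) hxR hsR⟩
  obtain ⟨c, hc⟩ := (isCyclic_iff_exists_zpowers_eq_top.mp hCc)
  have hcgen : ∀ x ∈ C, ∃ m : ℤ, (c : G) ^ m = x := by
    intro x hx
    have : (⟨x, hx⟩ : C) ∈ Subgroup.zpowers c := hc ▸ Subgroup.mem_top _
    obtain ⟨m, hm⟩ := Subgroup.mem_zpowers_iff.mp this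
    exact ⟨m, by rw [← SubgroupClass.coe_zpow, hm]⟩
  by_cases hsmall : (c : G) * c = 1
  · -- then `Q` has at most four elements, all of square one
    exfalso
    have hs1 := hinv s (hQS hsQ) hsR
    have hsq : ∀ x ∈ Q, x * x = 1 := by
      intro x hx
      by_cases hxR : x ∈ R
      · obtain ⟨m, rfl⟩ := hcgen x ⟨hx, hxR⟩
        rw [← (Commute.refl (c : G)).mul_zpow, hsmall, one_zpow]
      · exact hinv x (hQS hx) hxR
    have hCle : Nat.card C ≤ 2 := by
      rw [← Nat.card_congr (Equiv.subtypeUnivEquiv (p := fun x : C => x ∈ Subgroup.zpowers c)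
        (fun x => hc ▸ Subgroup.mem_top x))]
      refine le_trans (le_of_eq (Nat.card_zpowers c)) ?_
      refine Nat.le_of_dvd (by norm_num) (orderOf_dvd_of_pow_eq_one ?_)
      exact Subtype.ext (by simpa [pow_two] using hsmall)
    have h4 : Nat.card Q ≤ 4 := by
      classical
      have : Function.Injective (fun x : Q =>
          (if h : (x : G) ∈ R then (Sum.inl ⟨x, x.2, h⟩ : C ⊕ C) else
            Sum.inr ⟨(x : G) * s, Q.mul_mem x.2 hsQ, hprod _ (hQS x.2) s (hQS hsQ) h hsR⟩)) := by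
        intro a b hab
        by_cases ha : (a : G) ∈ R <;> by_cases hb : (b : G) ∈ R <;> simp [ha, hb] at hab
        · have h := congrArg Subtype.val hab
          exact Subtype.ext h
        · have h := congrArg Subtype.val hab
          exact Subtype.ext (mul_right_cancel h)
      have := Nat.card_le_card_of_injective _ this
      rw [Nat.card_sum] at this
      omega
    obtain ⟨k, hk⟩ := IsPGroup.iff_card.mp hQ
    have hk2 : k = 2 := by
      rcases k with _ | _ | _ | k
      · haveI : Subsingleton Q := (Nat.card_eq_one_iff_unique.mp (by rw [hk]; norm_num)).1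
        exact absurd isCyclic_of_subsingleton hcyc
      · exact absurd (isCyclic_of_prime_card (p := 2) (by rw [hk]; norm_num)) hcyc
      · rfl
      · rw [hk, pow_succ, pow_succ, pow_succ] at h4
        have := Nat.one_le_two_pow (n := k)
        omega
    subst hk2
    haveI : Nontrivial Q := Finite.one_lt_card_iff_nontrivial.mp (by rw [hk]; norm_num)
    refine hK ⟨by rw [hk]; norm_num, ?_⟩
    rw [Monoid.exponent_eq_prime_iff Nat.prime_two]
    intro x hx1
    exact orderOf_eq_prime (Subtype.ext (by simpa [pow_two] using hsq x x.2)) hx1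
  · have hgx := fun x => Subgroup.mem_normalizer_iff.mp hg x
    have hgc : g * c * g⁻¹ ∈ C := by
      have h1 : g * c * g⁻¹ ∈ Q := (hgx _).mp c.2.1
      refine ⟨h1, ?_⟩
      by_contra h2
      apply hsmall
      have h3 := hinv _ (hQS h1) h2
      have : g * ((c : G) * c) * g⁻¹ = 1 := by rw [← h3]; group
      simpa using this
    have hgC : ∀ x ∈ C, g * x * g⁻¹ ∈ C := by
      intro x hx
      obtain ⟨m, rfl⟩ := hcgen x hx
      rw [← conj_zpow]
      exact C.zpow_mem hgc m
    have hgN : g ∈ Subgroup.normalizer (C : Set G) := by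
      rw [Subgroup.mem_normalizer_iff_map_conj_eq]
      refine Subgroup.eq_of_le_of_card_ge ?_ ?_
      · rintro _ ⟨x, hx, rfl⟩
        exact hgC x hx
      · rw [Subgroup.card_map_of_injective (MulAut.conj g).injective]
    have hcent := odd_centralizes_cyclic (hQ.to_le inf_le_left) hgN ho
    rw [Subgroup.mem_centralizer_iff] at hcent
    have hsgR : g * s * g⁻¹ ∉ R := by
      intro h
      have h1 : g * s * g⁻¹ ∈ C := ⟨(hgx _).mp hsQ, h⟩
      have h2 := hcent _ h1
      have : s = g * s * g⁻¹ := by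
        have e : s = g⁻¹ * (g * s * g⁻¹ * g) := by group
        conv_lhs => rw [e, h2]
        group
      exact hsR (this ▸ h)
    set r := g * s * g⁻¹ * s with hr
    have hrC : r ∈ C := ⟨Q.mul_mem ((hgx _).mp hsQ) hsQ, hprod _ (hQS ((hgx _).mp hsQ)) s (hQS hsQ) hsgR hsR⟩
    have hs1 := hinv s (hQS hsQ) hsR
    have hgs : g * s * g⁻¹ = r * s := by rw [hr, mul_assoc (g * s * g⁻¹) s s, hs1, mul_one]
    have hpow : ∀ k : ℕ, g ^ k * s * (g ^ k)⁻¹ = r ^ k * s := by
      intro k
      induction k with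
      | zero => simp
      | succ k ih =>
        have hgr : Commute g (r ^ k) := (show Commute g r from (hcent r hrC).symm).pow_right k
        calc g ^ (k + 1) * s * (g ^ (k + 1))⁻¹ = g * (g ^ k * s * (g ^ k)⁻¹) * g⁻¹ := by
              rw [pow_succ']; group
          _ = (g * r ^ k) * s * g⁻¹ := by rw [ih]; group
          _ = r ^ k * (g * s * g⁻¹) := by rw [hgr.eq]; group
          _ = r ^ (k + 1) * s := by rw [hgs, pow_succ]; group
    have hr1 : r = 1 := by
      have h1 := hpow (orderOf g)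
      rw [pow_orderOf_eq_one, one_mul, inv_one, mul_one] at h1
      have h2 : r ^ orderOf g = 1 := by
        have := h1.symm
        simpa using this
      obtain ⟨j, hj⟩ := IsPGroup.iff_orderOf.mp hQ ⟨r, hrC.1⟩
      rw [Subgroup.orderOf_mk] at hj
      exact orderOf_eq_one_iff.mp (Nat.eq_one_of_dvd_coprimes (a := orderOf g) (b := 2 ^ j)
        (ho.pow_right j) (orderOf_dvd_of_pow_eq_one h2) (dvd_of_eq hj))
    have hgsc : s * g = g * s := by
      rw [hr1, one_mul] at hgs
      conv_lhs => rw [← hgs]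
      group
    rw [Subgroup.mem_centralizer_iff]
    intro x hx
    rcases hdec x hx with h | h
    · exact hcent x h
    · have h2 := hcent _ h
      have e : x = x * s * s := by rw [mul_assoc, hs1, mul_one]
      rw [e, mul_assoc, hgsc, ← mul_assoc, h2, mul_assoc]

end Cfsg.Agent.H7
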