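import Cfsg.Agent.Invol.Index

/-!
No finite group has exactly fifteen Sylow 7-subgroups.
-/

set_option autoImplicit false

namespace Cfsg.Agent.Fifteen

open Subgroup MulAction

universe u

variable {G : Type u} [Group G] [Finite G]

theorem fact7 : Fact (Nat.Prime 7) := ⟨by norm_num⟩

attribute [local instance] fact7

theorem dvd_six {r : ℕ} (h : r ∣ 6) : r = 1 ∨ r = 2 ∨ r = 3 ∨ r = 6 := by
  have := Nat.le_of_dvd (by norm_num) h
  interval_cases r <;> omega

theorem le_of_normal_index (K : Subgroup G) [K.Normal] (h : ¬ 7 ∣ K.index) (P : Sylow 7 G) :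
    (P : Subgroup G) ≤ K := by
  rw [← relIndex_eq_one]
  obtain ⟨k, hk⟩ := P.2.index (K.subgroupOf (P : Subgroup G))
  change K.relIndex (P : Subgroup G) = 7 ^ k at hk
  rw [hk]
  rcases k with _ | k
  · rfl
  · exact absurd ((dvd_pow_self 7 k.succ_ne_zero).trans
      (hk ▸ relIndex_dvd_index_of_normal K (P : Subgroup G))) h

theorem card_sylow_subgroup (K : Subgroup G) [K.Normal] (h : ¬ 7 ∣ K.index) :
    Nat.card (Sylow 7 K) = Nat.card (Sylow 7 G) := by
  refine (Nat.card_eq_of_bijective (fun P => P.subtype (le_of_normal_index K h P)) ⟨?_, ?_⟩).symm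
  · exact fun P Q e => Sylow.subtype_injective e
  · intro S
    obtain ⟨P⟩ : Nonempty (Sylow 7 G) := inferInstance
    obtain ⟨k, hk⟩ := exists_smul_eq ↥K (P.subtype (le_of_normal_index K h P)) S
    exact ⟨(k : G) • P, by rw [← hk, Sylow.smul_subtype]; rfl⟩

theorem fix_iff {P Q : Sylow 7 G} {g : G} (hg : g ∈ (P : Subgroup G)) :
    g • Q = Q ↔ g ∈ (Q : Subgroup G) := by
  rw [Sylow.smul_eq_iff_mem_normalizer]
  refine ⟨fun h => ?_, fun h => le_normalizer h⟩
  have hp : IsPGroup 7 (zpowers g) := P.2.to_le (zpowers_le.mpr hg)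
  have h1 := hp.inf_normalizer_sylow Q
  exact (h1.le ⟨mem_zpowers g, h⟩).2

theorem eq_of_normalizes {P Q : Sylow 7 G}
    (h : (P : Subgroup G) ≤ normalizer ((Q : Subgroup G) : Set G)) : P = Q := by
  have h1 := P.2.inf_normalizer_sylow Q
  have h2 : (P : Subgroup G) ≤ Q := fun g hg => (h1.le ⟨hg, h hg⟩).2
  exact Sylow.ext (P.3 Q.2 h2).symm

theorem stabilizer_eq (P Q : Sylow 7 G) :
    stabilizer ↥(P : Subgroup G) Q = (Q : Subgroup G).subgroupOf (P : Subgroup G) := by
  ext g
  exact fix_iff g.2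

theorem card_orbit' (h15 : Nat.card (Sylow 7 G) = 15) {P Q : Sylow 7 G} (hne : P ≠ Q) :
    Nat.card (orbit ↥(P : Subgroup G) Q) = 7 ∧
      (Q : Subgroup G).relIndex (P : Subgroup G) = 7 := by
  have he : Nat.card (orbit ↥(P : Subgroup G) Q) =
      (Q : Subgroup G).relIndex (P : Subgroup G) := by
    rw [Nat.card_congr (orbitEquivQuotientStabilizer ↥(P : Subgroup G) Q), stabilizer_eq]
    rfl
  obtain ⟨k, hk⟩ := P.2.index ((Q : Subgroup G).subgroupOf (P : Subgroup G))
  change (Q : Subgroup G).relIndex (P : Subgroup G) = 7 ^ k at hk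
  have hle : Nat.card (orbit ↥(P : Subgroup G) Q) ≤ 15 := by
    rw [← h15]
    exact Nat.card_le_card_of_injective _ Subtype.val_injective
  have hk1 : k ≠ 0 := by
    rintro rfl
    rw [pow_zero, relIndex_eq_one] at hk
    exact hne (Sylow.ext (P.3 Q.2 hk).symm)
  rcases k with _ | _ | k
  · omega
  · exact ⟨by rw [he, hk]; rfl, by rw [hk]; rfl⟩
  · rw [he, hk] at hle
    rw [pow_succ, pow_succ] at hle
    have := Nat.one_le_pow k 7 (by norm_num)
    omega

theorem card_inter (h15 : Nat.card (Sylow 7 G) = 15) {P Q : Sylow 7 G} (hne : P ≠ Q) :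
    Nat.card ((P : Subgroup G) ⊓ Q : Subgroup G) * 7 = Nat.card (P : Subgroup G) := by
  have h := relIndex_mul_index (H := (P : Subgroup G) ⊓ Q) (K := (P : Subgroup G)) inf_le_left
  rw [inf_relIndex_left, (card_orbit' h15 hne).2] at h
  have h1 := ((P : Subgroup G) ⊓ Q).card_mul_index
  rw [← h, ← (P : Subgroup G).card_mul_index, ← mul_assoc] at h1
  exact Nat.eq_of_mul_eq_mul_right (Nat.pos_of_ne_zero index_ne_zero_of_finite) h1

theorem eq_inter (h15 : Nat.card (Sylow 7 G) = 15) {P Q R : Sylow 7 G} (h1 : P ≠ Q) (h2 : P ≠ R)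
    (hle : (P : Subgroup G) ⊓ Q ≤ R) : (P : Subgroup G) ⊓ Q = (P : Subgroup G) ⊓ R := by
  refine eq_of_le_of_card_ge (le_inf inf_le_left hle) ?_
  have e1 := card_inter h15 h1
  have e2 := card_inter h15 h2
  omega

theorem inter_orbit (h15 : Nat.card (Sylow 7 G) = 15) {P Q X : Sylow 7 G} (hne : P ≠ Q)
    (hX : X ∈ orbit ↥(P : Subgroup G) Q) :
    (P : Subgroup G) ⊓ Q ≤ X ∧ P ≠ X := by
  obtain ⟨g, rfl⟩ := hX
  have hn : ((Q : Subgroup G).subgroupOf (P : Subgroup G)).Normal := by
    refine Subgroup.normal_of_index_eq_minFac_card ?_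
    change (Q : Subgroup G).relIndex (P : Subgroup G) = _
    rw [(card_orbit' h15 hne).2]
    obtain ⟨k, hk⟩ := IsPGroup.iff_card.mp P.2
    have hk0 : k ≠ 0 := by
      rintro rfl
      have := card_inter h15 hne
      rw [hk, pow_zero] at this
      omega
    rw [hk, Nat.Prime.pow_minFac (by norm_num) hk0]
  refine ⟨fun a ha => ?_, ?_⟩
  · change a ∈ (((g : G) • Q : Sylow 7 G) : Subgroup G)
    rw [Sylow.coe_subgroup_smul, mem_pointwise_smul_iff_inv_smul_mem, ← map_inv]
    have h := hn.conj_mem ⟨a, ha.1⟩ ha.2 g⁻¹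
    rw [mem_subgroupOf] at h
    simpa using h
  · intro h
    have hfix : g • P = P := by
      change (g : G) • P = P
      exact (fix_iff g.2).mpr g.2
    exact hne (smul_left_cancel g (hfix.trans h))

theorem inter_const (h15 : Nat.card (Sylow 7 G) = 15) {P Q R : Sylow 7 G} (hQ : P ≠ Q)
    (hR : P ≠ R) : (P : Subgroup G) ⊓ Q = (P : Subgroup G) ⊓ R := by
  classical
  by_contra hne
  have hQR : Q ≠ R := fun h => hne (by rw [h])
  haveI : Fintype (Sylow 7 G) := Fintype.ofFinite _
  set A : Finset (Sylow 7 G) := (orbit ↥(P : Subgroup G) Q).toFinset with hA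
  set B : Finset (Sylow 7 G) := (orbit ↥(P : Subgroup G) R).toFinset with hB
  set C : Finset (Sylow 7 G) := (orbit ↥(R : Subgroup G) Q).toFinset with hC
  have hAc : A.card = 7 := by
    rw [hA, Set.toFinset_card, ← Nat.card_eq_fintype_card, (card_orbit' h15 hQ).1]
  have hBc : B.card = 7 := by
    rw [hB, Set.toFinset_card, ← Nat.card_eq_fintype_card, (card_orbit' h15 hR).1]
  have hCc : C.card = 7 := by
    rw [hC, Set.toFinset_card, ← Nat.card_eq_fintype_card, (card_orbit' h15 hQR.symm).1]
  have hAm : ∀ X ∈ A, P ≠ X ∧ (P : Subgroup G) ⊓ Q = (P : Subgroup G) ⊓ X := by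
    intro X hX
    obtain ⟨h1, h2⟩ := inter_orbit h15 hQ (Set.mem_toFinset.mp hX)
    exact ⟨h2, eq_inter h15 hQ h2 h1⟩
  have hBm : ∀ X ∈ B, P ≠ X ∧ (P : Subgroup G) ⊓ R = (P : Subgroup G) ⊓ X := by
    intro X hX
    obtain ⟨h1, h2⟩ := inter_orbit h15 hR (Set.mem_toFinset.mp hX)
    exact ⟨h2, eq_inter h15 hR h2 h1⟩
  have hdisj : Disjoint A B := Finset.disjoint_left.mpr fun X ha hb =>
    hne ((hAm X ha).2.trans (hBm X hb).2.symm)
  have hunion : A ∪ B = Finset.univ.erase P := by
    refine Finset.eq_of_subset_of_card_le ?_ ?_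
    · intro X hX
      rw [Finset.mem_erase]
      rcases Finset.mem_union.mp hX with h | h
      · exact ⟨(hAm X h).1.symm, Finset.mem_univ _⟩
      · exact ⟨(hBm X h).1.symm, Finset.mem_univ _⟩
    · rw [Finset.card_union_of_disjoint hdisj, hAc, hBc, Finset.card_erase_of_mem
        (Finset.mem_univ _), Finset.card_univ, ← Nat.card_eq_fintype_card, h15]
  have hCA : C = A := by
    refine Finset.eq_of_subset_of_card_le ?_ (by rw [hAc, hCc])
    intro X hX
    obtain ⟨hN, hXR⟩ := inter_orbit h15 hQR.symm (Set.mem_toFinset.mp hX)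
    have hNX := eq_inter h15 hQR.symm hXR hN
    have hXP : X ≠ P := by
      rintro rfl
      apply hne
      have h1 : (X : Subgroup G) ⊓ R ≤ Q := by
        rw [inf_comm, ← hNX]
        exact inf_le_right
      exact (eq_inter h15 hR hQ h1).symm
    have : X ∈ A ∪ B := by
      rw [hunion]; exact Finset.mem_erase.mpr ⟨hXP, Finset.mem_univ _⟩
    rcases Finset.mem_union.mp this with h | h
    · exact h
    · exfalso
      apply hne
      have hm := (hBm X h).2
      have h1 : (P : Subgroup G) ⊓ R ≤ (R : Subgroup G) ⊓ X :=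
        le_inf inf_le_right (hm ▸ inf_le_right)
      rw [← hNX] at h1
      exact (eq_inter h15 hR hQ (h1.trans inf_le_right)).symm
  obtain ⟨X, hX, hXQ⟩ := Finset.exists_mem_ne (by rw [hAc]; norm_num) Q (s := A)
  obtain ⟨hN, hXR⟩ := inter_orbit h15 hQR.symm (Set.mem_toFinset.mp (hCA ▸ hX : X ∈ C))
  have h1 : (Q : Subgroup G) ⊓ R ≤ X := by rw [inf_comm]; exact hN
  have h2 : (Q : Subgroup G) ⊓ P ≤ X := by
    rw [inf_comm, (hAm X hX).2]
    exact inf_le_right
  have h3 := (eq_inter h15 hQ.symm hXQ.symm h2).trans (eq_inter h15 hQR hXQ.symm h1).symm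
  apply hne
  refine eq_inter h15 hQ hR ?_
  rw [inf_comm, h3]
  exact inf_le_right

theorem card_le_fourteen (h15 : Nat.card (Sylow 7 G) = 15)
    (hfaith : ∀ g : G, (∀ Q : Sylow 7 G, g • Q = Q) → g = 1) (P : Sylow 7 G) :
    Nat.card (P : Subgroup G) = 7 ∧
    ∃ Q R : Sylow 7 G, P ≠ Q ∧ P ≠ R ∧ R ∉ orbit ↥(P : Subgroup G) Q ∧
      ∀ X : Sylow 7 G, X ≠ P → X ∈ orbit ↥(P : Subgroup G) Q ∨ X ∈ orbit ↥(P : Subgroup G) R := by
  classical
  haveI : Fintype (Sylow 7 G) := Fintype.ofFinite _
  have h14 : (Finset.univ.erase P).card = 14 := by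
    rw [Finset.card_erase_of_mem (Finset.mem_univ _), Finset.card_univ,
      ← Nat.card_eq_fintype_card, h15]
  obtain ⟨Q, hQ⟩ : (Finset.univ.erase P).Nonempty := Finset.card_pos.mp (by rw [h14]; norm_num)
  have hQ' : P ≠ Q := (Finset.ne_of_mem_erase hQ).symm
  refine ⟨?_, ?_⟩
  · have hbot : (P : Subgroup G) ⊓ Q = ⊥ := by
      rw [eq_bot_iff]
      intro g hg
      refine mem_bot.mpr (hfaith g fun X => ?_)
      rw [fix_iff hg.1]
      rcases eq_or_ne P X with rfl | hX
      · exact hg.1
      · exact ((inter_const h15 hQ' hX).le hg).2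
    have := card_inter h15 hQ'
    rw [hbot, card_bot, one_mul] at this
    exact this.symm
  · set A : Finset (Sylow 7 G) := (orbit ↥(P : Subgroup G) Q).toFinset with hA
    have hAc : A.card = 7 := by
      rw [hA, Set.toFinset_card, ← Nat.card_eq_fintype_card, (card_orbit' h15 hQ').1]
    have hsub : A ⊆ Finset.univ.erase P := fun X hX =>
      Finset.mem_erase.mpr ⟨(inter_orbit h15 hQ' (Set.mem_toFinset.mp hX)).2.symm,
        Finset.mem_univ _⟩
    obtain ⟨R, hR⟩ : ((Finset.univ.erase P) \ A).Nonempty := by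
      rw [← Finset.card_pos, Finset.card_sdiff_of_subset hsub, h14, hAc]; norm_num
    rw [Finset.mem_sdiff] at hR
    have hR' : P ≠ R := (Finset.ne_of_mem_erase hR.1).symm
    refine ⟨Q, R, hQ', hR', fun h => hR.2 (Set.mem_toFinset.mpr h), ?_⟩
    set B : Finset (Sylow 7 G) := (orbit ↥(P : Subgroup G) R).toFinset with hB
    have hBc : B.card = 7 := by
      rw [hB, Set.toFinset_card, ← Nat.card_eq_fintype_card, (card_orbit' h15 hR').1]
    have hdisj : Disjoint A B := Finset.disjoint_left.mpr fun X ha hb => by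
      rw [hA, Set.mem_toFinset] at ha
      rw [hB, Set.mem_toFinset] at hb
      apply hR.2
      rw [hA, Set.mem_toFinset, ← orbit_eq_iff.mpr ha, orbit_eq_iff.mpr hb]
      exact mem_orbit_self R
    have hunion : A ∪ B = Finset.univ.erase P := by
      refine Finset.eq_of_subset_of_card_le ?_ ?_
      · refine Finset.union_subset hsub fun X hX => Finset.mem_erase.mpr
          ⟨(inter_orbit h15 hR' (Set.mem_toFinset.mp hX)).2.symm, Finset.mem_univ _⟩
      · rw [Finset.card_union_of_disjoint hdisj, hAc, hBc, h14]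
    intro X hX
    have : X ∈ A ∪ B := by rw [hunion]; exact Finset.mem_erase.mpr ⟨hX, Finset.mem_univ _⟩
    rcases Finset.mem_union.mp this with h | h
    · exact Or.inl (Set.mem_toFinset.mp h)
    · exact Or.inr (Set.mem_toFinset.mp h)

theorem centralizer_facts (h15 : Nat.card (Sylow 7 G) = 15)
    (hfaith : ∀ g : G, (∀ Q : Sylow 7 G, g • Q = Q) → g = 1) (P : Sylow 7 G) :
    Nat.card (centralizer ((P : Subgroup G) : Set G)) ∣ 14 ∧
    (2 ∣ Nat.card (centralizer ((P : Subgroup G) : Set G)) → ∃ K : Subgroup G, K.index = 2) := by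
  classical
  haveI : Fintype (Sylow 7 G) := Fintype.ofFinite _
  obtain ⟨hP7, Q, R, hQ, hR, hRQ, hcov⟩ := card_le_fourteen h15 hfaith P
  set C := centralizer ((P : Subgroup G) : Set G) with hC
  have hcomm : ∀ c ∈ C, ∀ (x : ↥(P : Subgroup G)) (X : Sylow 7 G), c • (x • X) = x • (c • X) := by
    intro c hc x X
    change c • ((x : G) • X) = (x : G) • (c • X)
    rw [← mul_smul, ← mul_smul, mem_centralizer_iff.mp hc x x.2]
  have hfixP : ∀ c ∈ C, c • P = P := fun c hc =>
    Sylow.smul_eq_iff_mem_normalizer.mpr (centralizer_le_normalizer _ hc)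
  have horb : ∀ c ∈ C, ∀ X Y : Sylow 7 G, X ∈ orbit ↥(P : Subgroup G) Y →
      c • X ∈ orbit ↥(P : Subgroup G) (c • Y) := by
    rintro c hc _ Y ⟨x, rfl⟩
    exact ⟨x, (hcomm c hc x Y).symm⟩
  have hmoves : ∀ c ∈ C, c • Q ∈ orbit ↥(P : Subgroup G) Q ∨ c • Q ∈ orbit ↥(P : Subgroup G) R :=
    fun c hc => hcov _ fun h => hQ (smul_left_cancel c ((hfixP c hc).trans h.symm))
  have hswap : ∀ c ∈ C, c • Q ∈ orbit ↥(P : Subgroup G) R →
      c • R ∈ orbit ↥(P : Subgroup G) Q := by
    intro c hc hcQ
    rcases hcov _ (fun h => hR (smul_left_cancel c ((hfixP c hc).trans h.symm))) with h | h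
    · exact h
    · exfalso
      apply hRQ
      have h1 : c • Q ∈ orbit ↥(P : Subgroup G) (c • R) := by
        rw [orbit_eq_iff.mpr h]; exact hcQ
      obtain ⟨x, hx⟩ := h1
      have hx' : x • R = Q := smul_left_cancel c ((hcomm c hc x R).trans hx)
      rw [← hx']
      exact mem_orbit_symm.mp (mem_orbit R x)
  have hrefl : ∀ c ∈ C, c • Q ∈ orbit ↥(P : Subgroup G) Q →
      c • R ∈ orbit ↥(P : Subgroup G) R := by
    intro c hc hcQ
    rcases hcov _ (fun h => hR (smul_left_cancel c ((hfixP c hc).trans h.symm))) with h | h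
    · exfalso
      apply hRQ
      have h1 : c • R ∈ orbit ↥(P : Subgroup G) (c • Q) := by
        rw [orbit_eq_iff.mpr hcQ]; exact h
      obtain ⟨x, hx⟩ := h1
      have hx' : x • Q = R := smul_left_cancel c ((hcomm c hc x Q).trans hx)
      rw [← hx']
      exact mem_orbit Q x
    · exact h
  have hdet : ∀ c ∈ C, c • Q = Q → c • R = R → c = 1 := by
    intro c hc h1 h2
    refine hfaith c fun X => ?_
    rcases eq_or_ne X P with rfl | hX
    · exact hfixP c hc
    · rcases hcov X hX with ⟨x, rfl⟩ | ⟨x, rfl⟩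
      · rw [hcomm c hc x Q, h1]
      · rw [hcomm c hc x R, h2]
  let D : Subgroup G :=
    { carrier := {c | c ∈ C ∧ c • Q ∈ orbit ↥(P : Subgroup G) Q}
      one_mem' := ⟨one_mem _, by rw [one_smul]; exact mem_orbit_self Q⟩
      mul_mem' := by
        rintro a b ⟨ha, ha'⟩ ⟨hb, hb'⟩
        refine ⟨mul_mem ha hb, ?_⟩
        rw [mul_smul, ← orbit_eq_iff.mpr ha']
        exact horb a ha _ _ hb'
      inv_mem' := by
        rintro a ⟨ha, ha'⟩
        refine ⟨inv_mem ha, ?_⟩
        have := horb a⁻¹ (inv_mem ha) _ _ (mem_orbit_symm.mp ha')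
        rwa [inv_smul_smul] at this }
  have hpow : ∀ c ∈ D, c ^ 7 = 1 := by
    rintro c ⟨hc, hcQ⟩
    obtain ⟨x, hx⟩ := hcQ
    obtain ⟨y, hy⟩ := hrefl c hc ⟨x, hx⟩
    have key : ∀ (z : ↥(P : Subgroup G)) (X : Sylow 7 G), z • X = c • X →
        ∀ k : ℕ, c ^ k • X = z ^ k • X := by
      intro z X hz k
      induction k with
      | zero => simp
      | succ k ih => rw [pow_succ', mul_smul, ih, hcomm c hc, ← hz, smul_smul, ← pow_succ]
    have h7 : ∀ z : ↥(P : Subgroup G), z ^ 7 = 1 := fun z => by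
      have := pow_card_eq_one' (x := z)
      rwa [hP7] at this
    refine hdet _ (pow_mem hc 7) ?_ ?_
    · rw [key x Q hx, h7, one_smul]
    · rw [key y R hy, h7, one_smul]
  have hDP : D ≤ (P : Subgroup G) := by
    have hD7 : IsPGroup 7 D := fun c => ⟨1, Subtype.ext (by simpa using hpow c c.2)⟩
    have h1 := hD7.inf_normalizer_sylow P
    exact fun c hc => (h1.le ⟨hc, centralizer_le_normalizer _ hc.1⟩).2
  haveI : IsCyclic ↥(P : Subgroup G) := isCyclic_of_prime_card hP7
  have hPD : (P : Subgroup G) ≤ D := by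
    intro x hx
    refine ⟨le_centralizer _ hx, ⟨⟨x, hx⟩, rfl⟩⟩
  have hD : Nat.card D = 7 := by rw [le_antisymm hDP hPD, hP7]
  have hDC : D ≤ C := fun c hc => hc.1
  have hidx : D.relIndex C ∣ 2 := by
    by_cases h : D.relIndex C = 1
    · rw [h]; norm_num
    · rw [relIndex_eq_one] at h
      obtain ⟨c, hc, hcD⟩ := Set.not_subset.mp h
      have h2 : (D.subgroupOf C).index = 2 := by
        rw [index_eq_two_iff]
        refine ⟨⟨c, hc⟩, fun b => ?_⟩
        have hcQ : c • Q ∈ orbit ↥(P : Subgroup G) R :=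
          (hmoves c hc).resolve_left fun hh => hcD ⟨hc, hh⟩
        by_cases hb : (b : G) ∈ D
        · refine Or.inr ⟨hb, fun hbc => hcD ?_⟩
          have := mul_mem (inv_mem hb) (show (b : G) * c ∈ D from hbc)
          rwa [inv_mul_cancel_left] at this
        · refine Or.inl ⟨?_, hb⟩
          change (b : G) * c ∈ D
          have hbQ : (b : G) • Q ∈ orbit ↥(P : Subgroup G) R :=
            (hmoves b b.2).resolve_left fun hh => hb ⟨b.2, hh⟩
          refine ⟨mul_mem b.2 hc, ?_⟩
          rw [mul_smul, ← orbit_eq_iff.mpr (hswap b b.2 hbQ)]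
          exact horb b b.2 _ _ hcQ
      exact dvd_of_eq h2
  refine ⟨?_, fun h2 => ?_⟩
  · rw [← card_mul_index (D.subgroupOf C), Nat.card_congr (subgroupOfEquivOfLe hDC).toEquiv, hD]
    exact mul_dvd_mul_left 7 hidx
  · obtain ⟨⟨t, htC⟩, ht⟩ := exists_prime_orderOf_dvd_card' 2 h2
    rw [← Subgroup.orderOf_coe] at ht
    change orderOf t = 2 at ht
    have htQ : t • Q ∈ orbit ↥(P : Subgroup G) R := (hmoves t htC).resolve_left fun hh => by
      have h7 := hpow t ⟨htC, hh⟩
      rw [← orderOf_dvd_iff_pow_eq_one, ht] at h7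
      norm_num at h7
    set f : Equiv.Perm (Sylow 7 G) := MulAction.toPerm t with hf
    have hsupp : f.support = Finset.univ.erase P := by
      ext X
      simp only [Equiv.Perm.mem_support, Finset.mem_erase, Finset.mem_univ, and_true, hf,
        MulAction.toPerm_apply]
      refine ⟨fun h e => h (e ▸ hfixP t htC), fun hX hfix => ?_⟩
      rcases hcov X hX with ⟨x, rfl⟩ | ⟨x, rfl⟩
      · rw [hcomm t htC x Q] at hfix
        rw [smul_left_cancel x hfix] at htQ
        exact hRQ (mem_orbit_symm.mp htQ)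
      · rw [hcomm t htC x R] at hfix
        have hRR := hswap t htC htQ
        rw [smul_left_cancel x hfix] at hRR
        exact hRQ hRR
    have hsq : f ^ 2 = 1 := by
      ext X
      simp [hf, pow_two, ← mul_smul, Invol.mul_self ht]
    have hct := Equiv.Perm.cycleType_of_pow_prime_eq_one (σ := f) (p := 2) hsq
    have hsum := f.sum_cycleType
    rw [hsupp, Finset.card_erase_of_mem (Finset.mem_univ _), Finset.card_univ,
      ← Nat.card_eq_fintype_card, h15, hct, Multiset.sum_replicate, smul_eq_mul] at hsum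
    have hsign : Equiv.Perm.sign f = -1 := by
      rw [Equiv.Perm.sign_of_cycleType, hct, Multiset.sum_replicate, Multiset.card_replicate,
        smul_eq_mul, show f.cycleType.card = 7 by omega]
      decide
    set φ : G →* ℤˣ := Equiv.Perm.sign.comp (MulAction.toPermHom G (Sylow 7 G)) with hφ
    have hsurj : Function.Surjective φ := by
      intro s
      rcases Int.units_eq_one_or s with rfl | rfl
      · exact ⟨1, map_one _⟩
      · exact ⟨t, hsign⟩
    refine ⟨φ.ker, ?_⟩
    rw [index_ker, MonoidHom.range_eq_top.mpr hsurj]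
    simp

theorem relIndex_centralizer_dvd {p : ℕ} [Fact p.Prime] (H : Subgroup G) (hH : Nat.card H = p) :
    (centralizer (H : Set G)).relIndex (normalizer (H : Set G)) ∣ p - 1 := by
  haveI : IsCyclic H := isCyclic_of_prime_card hH
  have key := card_dvd_of_injective _ (QuotientGroup.kerLift_injective H.normalizerMonoidHom)
  rw [normalizerMonoidHom_ker, ← index, ← relIndex, IsCyclic.card_mulAut, hH,
    Nat.totient_prime Fact.out] at key
  exact key

theorem card_normalizer (h15 : Nat.card (Sylow 7 G) = 15) (P : Sylow 7 G) :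
    Nat.card G = 15 * Nat.card (normalizer ((P : Subgroup G) : Set G)) := by
  have h : (normalizer ((P : Subgroup G) : Set G)).index = 15 := by
    rw [← h15]
    exact P.card_eq_index_normalizer.symm
  rw [← card_mul_index (normalizer ((P : Subgroup G) : Set G)), h, mul_comm]

theorem no_fifteen_aux : ∀ n : ℕ, ∀ (G : Type u) [Group G] [Finite G], Nat.card G = n →
    Nat.card (Sylow 7 G) ≠ 15 := by
  intro n
  induction n using Nat.strong_induction_on with
  | _ n ih =>
    intro G _ _ hn h15
    subst hn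
    classical
    have hindex2 : ∀ K : Subgroup G, K.index = 2 → False := by
      intro K hK
      haveI := normal_of_index_eq_two hK
      have hlt : Nat.card K < Nat.card G := by
        have := K.card_mul_index
        rw [hK] at this
        have := Nat.card_pos (α := K)
        omega
      exact ih _ hlt K rfl ((card_sylow_subgroup K (by rw [hK]; norm_num)).trans h15)
    set φ := MulAction.toPermHom G (Sylow 7 G) with hφ
    by_cases hker : φ.ker = ⊥
    swap
    · have hlt : Nat.card (G ⧸ φ.ker) < Nat.card G := by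
        rw [← index_eq_card]
        have h1 := φ.ker.card_mul_index
        have h2 : 1 < Nat.card φ.ker := (one_lt_card_iff_ne_bot _).mpr hker
        have h3 : 0 < φ.ker.index := Nat.pos_of_ne_zero index_ne_zero_of_finite
        nlinarith
      refine ih _ hlt (G ⧸ φ.ker) rfl ?_
      rw [← h15]
      refine (Nat.card_eq_of_bijective (Sylow.mapSurjective (QuotientGroup.mk'_surjective φ.ker))
        ⟨?_, Sylow.mapSurjective_surjective (QuotientGroup.mk'_surjective φ.ker) 7⟩).symm
      intro P Q hPQ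
      refine eq_of_normalizes fun g hg => ?_
      have h1 : QuotientGroup.mk' φ.ker g ∈
          (Q : Subgroup G).map (QuotientGroup.mk' φ.ker) := by
        have h2 : QuotientGroup.mk' φ.ker g ∈
            (P : Subgroup G).map (QuotientGroup.mk' φ.ker) := mem_map_of_mem _ hg
        have h3 := congrArg (fun S : Sylow 7 (G ⧸ φ.ker) => (S : Subgroup (G ⧸ φ.ker))) hPQ
        simp only [Sylow.coe_mapSurjective] at h3
        rwa [h3] at h2
      obtain ⟨q, hq, hqe⟩ := h1
      have hqk : q⁻¹ * g ∈ φ.ker := QuotientGroup.eq.mp hqe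
      have h4 : (q⁻¹ * g) • Q = Q := congrFun (congrArg DFunLike.coe (MonoidHom.mem_ker.mp hqk)) Q
      have := mul_mem (le_normalizer hq) (Sylow.smul_eq_iff_mem_normalizer.mp h4)
      rwa [mul_inv_cancel_left] at this
    have hfaith : ∀ g : G, (∀ Q : Sylow 7 G, g • Q = Q) → g = 1 := fun g hg =>
      mem_bot.mp (hker ▸ MonoidHom.mem_ker.mpr (Equiv.ext hg) : g ∈ (⊥ : Subgroup G))
    obtain ⟨P⟩ : Nonempty (Sylow 7 G) := inferInstance
    have hP7 := (card_le_fourteen h15 hfaith P).1
    obtain ⟨hC, hC2⟩ := centralizer_facts h15 hfaith P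
    set N := normalizer ((P : Subgroup G) : Set G) with hN
    set C := centralizer ((P : Subgroup G) : Set G) with hCdef
    have hG : Nat.card G = 15 * Nat.card N := card_normalizer h15 P
    have hNC : C.relIndex N ∣ 6 := relIndex_centralizer_dvd (P : Subgroup G) hP7
    have hmul : Nat.card C * C.relIndex N = Nat.card N := by
      rw [relIndex, ← Nat.card_congr (subgroupOfEquivOfLe (centralizer_le_normalizer _ :
        C ≤ N)).toEquiv]
      exact card_mul_index _
    have h7C : 7 ∣ Nat.card C := by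
      haveI : IsCyclic ↥(P : Subgroup G) := isCyclic_of_prime_card hP7
      exact hP7 ▸ card_dvd_of_le (le_centralizer (P : Subgroup G))
    have hCpos : 0 < Nat.card C := Nat.card_pos
    have hCcases : Nat.card C = 7 ∨ Nat.card C = 14 := by
      obtain ⟨c, hc⟩ := h7C
      have := Nat.le_of_dvd (by norm_num) hC
      omega
    rcases hCcases with hC7 | hC14
    swap
    · obtain ⟨K, hK⟩ := hC2 ⟨7, by omega⟩
      exact hindex2 K hK
    have hr := Nat.le_of_dvd (by norm_num) hNC
    have hr0 : C.relIndex N ≠ 0 := fun h => by rw [h] at hNC; norm_num at hNC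
    rcases Nat.even_or_odd (C.relIndex N) with he | ho
    · obtain ⟨T⟩ : Nonempty (Sylow 2 G) := inferInstance
      have hG2 : 2 ∣ Nat.card G := by
        rw [hG, ← hmul]
        exact dvd_mul_of_dvd_right (dvd_mul_of_dvd_right (even_iff_two_dvd.mp he) _) _
      have hTc : Nat.card (T : Subgroup G) = 2 := by
        obtain ⟨k, hk⟩ := IsPGroup.iff_card.mp T.2
        have h1 : 2 ∣ Nat.card (T : Subgroup G) := T.dvd_card_of_dvd_card hG2
        have h2 := card_subgroup_dvd_card (T : Subgroup G)
        rw [hk] at h1 h2 ⊢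
        rcases k with _ | _ | k
        · norm_num at h1
        · rfl
        · exfalso
          have h4 : 4 ∣ Nat.card G := dvd_trans ⟨2 ^ k, by ring⟩ h2
          rw [hG, ← hmul, hC7] at h4
          obtain ⟨j, hj⟩ := he
          rcases dvd_six hNC with h | h | h | h <;> omega
      haveI : Fact (Nat.Prime 2) := ⟨Nat.prime_two⟩
      obtain ⟨K, hK⟩ := Invol.exists_index_two_of_cyclic (even_iff_two_dvd.mpr hG2) T
        (isCyclic_of_prime_card hTc)
      exact hindex2 K hK
    · have hr13 : C.relIndex N = 1 ∨ C.relIndex N = 3 := by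
        obtain ⟨j, hj⟩ := ho
        rcases dvd_six hNC with h | h | h | h <;> omega
      have hGval : Nat.card G = 105 ∨ Nat.card G = 315 := by
        rcases hr13 with h | h <;> rw [h, hC7] at hmul <;> omega
      haveI : Fact (Nat.Prime 5) := ⟨by norm_num⟩
      obtain ⟨F⟩ : Nonempty (Sylow 5 G) := inferInstance
      have hF : Nat.card (F : Subgroup G) = 5 := by
        obtain ⟨k, hk⟩ := IsPGroup.iff_card.mp F.2
        have h1 : 5 ∣ Nat.card (F : Subgroup G) := F.dvd_card_of_dvd_card (by omega)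
        have h2 := card_subgroup_dvd_card (F : Subgroup G)
        rw [hk] at h1 h2 ⊢
        rcases k with _ | _ | k
        · norm_num at h1
        · rfl
        · exfalso
          have h4 : 25 ∣ Nat.card G := dvd_trans ⟨5 ^ k, by ring⟩ h2
          omega
      have hle : normalizer ((F : Subgroup G) : Set G) ≤
          centralizer ((F : Subgroup G) : Set G) := by
        rw [← relIndex_eq_one]
        refine Nat.eq_one_of_dvd_coprimes (a := 4) (b := Nat.card G) ?_
          (relIndex_centralizer_dvd (F : Subgroup G) hF)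
          ((relIndex_dvd_card _ _).trans (card_subgroup_dvd_card _))
        rcases hGval with h | h <;> rw [h] <;> norm_num
      set f := MonoidHom.transferSylow F (by exact hle) with hf
      have hK := MonoidHom.ker_transferSylow_isComplement' F (by exact hle)
      have hKi : f.ker.index = 5 := by
        rw [hK.symm.index_eq_card]; exact hF
      have h15' := (card_sylow_subgroup f.ker (by rw [hKi]; norm_num)).trans h15
      obtain ⟨S⟩ : Nonempty (Sylow 7 f.ker) := inferInstance
      have hdvd := h15' ▸ S.card_dvd_index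
      have h3 := hdvd.trans (index_dvd_card (S : Subgroup f.ker))
      have h4 := f.ker.card_mul_index
      rw [hKi] at h4
      obtain ⟨d, hd⟩ := h3
      omega

end Cfsg.Agent.Fifteen
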