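import Cfsg.Agent.Solv.Gaschutz
import Mathlib.GroupTheory.Archimedean

/-! Gaschutz criterion via Sylow subgroups of the quotient. -/

set_option autoImplicit false
set_option linter.style.haveILetI false
set_option maxHeartbeats 100000
open Pointwise

universe u

namespace Cfsg.Agent.H7

open Cfsg.Agent.Solv

variable {G : Type u} [Group G] {K : Subgroup G} [K.Normal] [IsMulCommutative K]

theorem exists_crossed_index [Finite G] {U A : Subgroup G} (hKU : K ≤ U)
    (hdis : A ⊓ K = ⊥) (hsup : K ⊔ A = U) : ∃ f : G → K, IsCrossed f ∧ ∀ k : K, f k = k ^ U.index := by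
  classical
  letI : CommGroup K := { (inferInstance : Group K) with mul_comm := (‹IsMulCommutative K›).is_comm.comm }
  letI : Fintype (G ⧸ U) := Fintype.ofFinite _
  obtain ⟨π, huniq, -, hπmul⟩ := exists_projection (U := U) hdis hsup
  let t : G ⧸ U → G := Quotient.out
  have ht : ∀ x : G ⧸ U, (t x : G ⧸ U) = x := fun x => Quotient.out_eq x
  have hu : ∀ (g : G) (x : G ⧸ U), (t (g • x))⁻¹ * (g * t x) ∈ U := fun g x => by
    rw [← QuotientGroup.eq, ht]
    conv_lhs => rw [← ht x]
    rfl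
  let c : G → G ⧸ U → K := fun g x =>
    ⟨t (g • x) * π ⟨_, hu g x⟩ * (t (g • x))⁻¹, (inferInstance : K.Normal).conj_mem _ (π _).2 _⟩
  let F : G → K := fun g => ∏ x, c g x
  have hφ : ∀ g : G, ∀ k : K, g * (k : G) * g⁻¹ = ((MulAut.conjNormal g k : K) : G) := fun g k =>
    (MulAut.conjNormal_apply g k).symm
  have hF : IsCrossed F := by
    intro g h
    have hcm : ∀ x, c (g * h) x = c g (h • x) * MulAut.conjNormal g (c h x) := by
      intro x
      refine Subtype.ext ?_
      rw [Subgroup.coe_mul, MulAut.conjNormal_apply]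
      show t ((g * h) • x) * π ⟨_, hu (g * h) x⟩ * (t ((g * h) • x))⁻¹ = _
      have e : (⟨_, hu (g * h) x⟩ : U) = ⟨_, hu g (h • x)⟩ * ⟨_, hu h x⟩ := Subtype.ext (by
        show (t ((g * h) • x))⁻¹ * (g * h * t x) = (t (g • h • x))⁻¹ * (g * t (h • x)) * ((t (h • x))⁻¹ * (h * t x))
        rw [mul_smul]; group)
      rw [e, hπmul, mul_smul]
      show _ = (t (g • h • x) * π ⟨_, hu g (h • x)⟩ * (t (g • h • x))⁻¹) *
        (g * (t (h • x) * π ⟨_, hu h x⟩ * (t (h • x))⁻¹) * g⁻¹)
      group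
    have : F (g * h) = F g * MulAut.conjNormal g (F h) := by
      show ∏ x, c (g * h) x = _
      simp only [hcm, Finset.prod_mul_distrib]
      rw [← map_prod]
      congr 1
      exact Fintype.prod_equiv (MulAction.toPerm h) _ _ fun x => rfl
    rw [this, Subgroup.coe_mul, MulAut.conjNormal_apply]
  refine ⟨F, hF, fun k => ?_⟩
  rw [Subgroup.index_eq_card]
  have hFk : F (k : G) = k ^ Nat.card (G ⧸ U) := by
    rw [Nat.card_eq_fintype_card, ← Finset.card_univ, ← Finset.prod_const]
    refine Finset.prod_congr rfl fun x _ => Subtype.ext ?_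
    have hfix : (k : G) • x = x := by
      conv_lhs => rw [← ht x]
      conv_rhs => rw [← ht x]
      show (((k : G) * t x : G) : G ⧸ U) = _
      rw [QuotientGroup.eq, show ((k : G) * t x)⁻¹ * t x = (t x)⁻¹ * (k : G)⁻¹ * ((t x)⁻¹)⁻¹ by group]
      exact hKU ((inferInstance : K.Normal).conj_mem _ (inv_mem k.2) _)
    show t ((k : G) • x) * π ⟨_, hu (k : G) x⟩ * (t ((k : G) • x))⁻¹ = (k : G)
    have hk' : (t ((k : G) • x))⁻¹ * ((k : G) * t x) ∈ K := by
      rw [hfix, ← mul_assoc]
      simpa using (inferInstance : K.Normal).conj_mem _ k.2 (t x)⁻¹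
    rw [huniq ⟨_, hu (k : G) x⟩ ⟨_, hk'⟩ (by simp)]
    show t ((k : G) • x) * ((t ((k : G) • x))⁻¹ * ((k : G) * t x)) * (t ((k : G) • x))⁻¹ = (k : G)
    rw [hfix]; group
  exact hFk


theorem complement_of_local [Finite G]
    (h : ∀ p : ℕ, p.Prime → p ∣ K.index → ∃ U A : Subgroup G,
      K ≤ U ∧ A ⊓ K = ⊥ ∧ K ⊔ A = U ∧ ¬ p ∣ U.index) :
    ∃ H : Subgroup G, Subgroup.IsComplement' K H := by
  letI : CommGroup K := { (inferInstance : Group K) with mul_comm := (‹IsMulCommutative K›).is_comm.comm }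
  let M : AddSubgroup ℤ :=
    { carrier := {m | ∃ f : G → K, IsCrossed f ∧ ∀ k : K, f k = k ^ m}
      zero_mem' := ⟨fun _ => 1, fun g h => by simp, fun k => by simp⟩
      add_mem' := by
        rintro a b ⟨f, hf, hfk⟩ ⟨f', hf', hfk'⟩
        refine ⟨fun g => f g * f' g, fun g h => ?_, fun k => by simp only [hfk, hfk', zpow_add]⟩
        have e : f (g * h) * f' (g * h) =
            f g * f' g * (MulAut.conjNormal g (f h) * MulAut.conjNormal g (f' h)) := by
          rw [show f (g * h) = f g * MulAut.conjNormal g (f h) from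
              Subtype.ext (by rw [hf g h, Subgroup.coe_mul, MulAut.conjNormal_apply]),
            show f' (g * h) = f' g * MulAut.conjNormal g (f' h) from
              Subtype.ext (by rw [hf' g h, Subgroup.coe_mul, MulAut.conjNormal_apply]),
            mul_mul_mul_comm]
        show ((f (g * h) * f' (g * h) : K) : G) = _
        rw [e, ← map_mul, Subgroup.coe_mul, MulAut.conjNormal_apply]
      neg_mem' := by
        rintro a ⟨f, hf, hfk⟩
        refine ⟨fun g => (f g)⁻¹, fun g h => ?_, fun k => by simp only [hfk, zpow_neg]⟩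
        have e : (f (g * h))⁻¹ = (f g)⁻¹ * MulAut.conjNormal g ((f h)⁻¹) := by
          rw [show f (g * h) = f g * MulAut.conjNormal g (f h) from
              Subtype.ext (by rw [hf g h, Subgroup.coe_mul, MulAut.conjNormal_apply]),
            mul_inv, map_inv]
        show (((f (g * h))⁻¹ : K) : G) = _
        rw [e, Subgroup.coe_mul, MulAut.conjNormal_apply] }
  have hmem : ∀ (U A : Subgroup G), K ≤ U → A ⊓ K = ⊥ → K ⊔ A = U → (U.index : ℤ) ∈ M := by
    intro U A h1 h2 h3
    obtain ⟨f, hf, hfk⟩ := exists_crossed_index h1 h2 h3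
    exact ⟨f, hf, fun k => by rw [hfk, zpow_natCast]⟩
  obtain ⟨d, hd⟩ := Int.subgroup_cyclic M
  rw [← AddSubgroup.zmultiples_eq_closure] at hd
  have hdvd : ∀ n : ℕ, (n : ℤ) ∈ M → d.natAbs ∣ n := by
    intro n hn
    rw [hd, Int.mem_zmultiples_iff] at hn
    exact Int.natCast_dvd_natCast.mp (Int.natAbs_dvd.mpr hn)
  have hK : d.natAbs ∣ K.index := hdvd _ (hmem K ⊥ le_rfl (by simp) (by simp))
  have hd1 : d.natAbs = 1 := by
    by_contra hne
    obtain ⟨r, hr, hrd⟩ := Nat.exists_prime_and_dvd hne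
    obtain ⟨U, A, h1, h2, h3, h4⟩ := h r hr (hrd.trans hK)
    exact h4 (hrd.trans (hdvd _ (hmem U A h1 h2 h3)))
  have h1 : (1 : ℤ) ∈ M := by
    rw [hd, Int.mem_zmultiples_iff]
    exact Int.natAbs_dvd.mp (by rw [hd1]; norm_num)
  obtain ⟨f, hf, hfk⟩ := h1
  exact exists_complement_of_crossed f hf fun k => by rw [hfk, zpow_one]

end Cfsg.Agent.H7
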